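import Cfsg.Agent.Lib.Chev.FieldAut
import Cfsg.Agent.Lib.Chev.Sym
import Cfsg.Agent.Lib.Chev.InvolMono

/-!
The adjoint group over a finite field: the elements that lie in the group over an extension.
-/

set_option autoImplicit false

namespace Cfsg.Agent.Lib.Chev.E6Cyclic

open Cfsg.Lie Cfsg.Agent.Lib Cfsg.Agent.Lib.Chev

variable {D : ChevalleyDatum} {T : Fast} {F K : Type*} [Field F] [Field K]

/-- A fixed element is a product of rational elements and a fixed torus element. -/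
theorem fixed_decomp (C : Checked D T) (i : K →+* F) (σ : F ≃+* F) (hi : ∀ x : F, σ x = x ↔ x ∈ i.range)
    {g : GL D.Idx F} (hg : g ∈ D.group F) (hfix : gmap D σ.toRingHom g = g) :
    ∃ k₁ ∈ D.group K, ∃ h ∈ D.diagonalSubgroup F, ∃ k₂ ∈ D.group K, gmap D σ.toRingHom h = h ∧
      g = gmap D i k₁ * h * gmap D i k₂ := by
  have hσi : σ.toRingHom.comp i = i := RingHom.ext fun y => (hi (i y)).2 ⟨y, rfl⟩
  have hgrp : ∀ S : Set ℕ, ClosedSet D S → ∀ u ∈ grp D F S, gmap D σ.toRingHom u = u →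
      u ∈ (D.group K).map (gmap D i) := by
    intro S hS u hu hfu
    obtain ⟨t, rfl⟩ := C.exists_ordered hS hu
    have hlt : ∀ p ∈ (C.rootList S).map (fun r => (r, t r)), p.1 < D.nroots := by
      intro p hp
      obtain ⟨r, hr, rfl⟩ := List.mem_map.1 hp
      exact (C.mem_rootList.1 hr).1
    rw [C.gmap_wg _ _ hlt, List.map_map] at hfu
    have hco := C.ordered_inj _ (C.rootList_sorted S)
      (fun r hr => hS.pos r (C.mem_rootList.1 hr).2) (fun r => σ (t r)) t hfu
    refine Subgroup.mem_map.2 ⟨C.wg ((C.rootList S).map fun r => (r, Function.invFun i (t r))),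
      C.wg_mem_group _ ?_, ?_⟩
    · intro p hp
      obtain ⟨r, hr, rfl⟩ := List.mem_map.1 hp
      exact (C.mem_rootList.1 hr).1
    · rw [C.gmap_wg]
      · congr 1
        rw [List.map_map]
        refine List.map_congr_left fun r hr => ?_
        obtain ⟨y, hy⟩ := (hi (t r)).1 (hco r hr)
        show (r, i (Function.invFun i (t r))) = (r, t r)
        rw [Function.invFun_eq ⟨y, hy⟩]
      · intro p hp
        obtain ⟨r, hr, rfl⟩ := List.mem_map.1 hp
        exact (C.mem_rootList.1 hr).1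
  obtain ⟨b₀, hb₀, n₀, hn₀, u₀, hu₀, rfl⟩ := C.exists_bnu hg
  obtain ⟨m, hm, hd⟩ := C.exists_rep_base i hn₀
  set n := gmap D i m with hn
  have hnm : n ∈ D.monomialSubgroup F := C.gmap_monomial i hm
  have hinv : C.inv n₀ = C.inv n := C.inv_congr fun r hr => by
    have := C.sg_mul hn₀ (C.diag_le_monomial hd) hr
    rw [mul_inv_cancel_left, C.sg_diag hd hr] at this
    exact this.symm
  set b := b₀ * (n₀ * n⁻¹) with hbdef
  have hb : b ∈ D.borelSubgroup F := by
    refine mul_mem hb₀ (Subgroup.mem_sup_right ?_)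
    have h3 := C.mono_conj_diag hnm _ (inv_mem hd)
    convert h3 using 1
    group
  have hu : u₀ ∈ grp D F (C.inv n) := hinv ▸ hu₀
  have e0 : b₀ * n₀ * u₀ = b * n * u₀ := by rw [hbdef]; group
  rw [e0] at hfix hg ⊢
  have hnfix : gmap D σ.toRingHom n = n := by rw [hn, gmap_gmap, hσi]
  rw [map_mul, map_mul, hnfix] at hfix
  obtain ⟨hbfix, hufix⟩ := (C.bnu_unique (C.gmap_borel _ hb) hb hnm hnm
    (C.gmap_grp σ.toRingHom (fun r hr => hr.1.1) hu) hu hfix).2 rfl
  obtain ⟨k₀, hk₀, hk₀'⟩ := Subgroup.mem_map.1 (hgrp _ (C.closedSet_inv hnm) u₀ hu hufix)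
  obtain ⟨v, hv, h, hh, hbv⟩ := C.mem_borel.1 hb
  rw [hbv, map_mul] at hbfix
  rw [posUnipotent_eq] at hv
  have hσv : gmap D σ.toRingHom v ∈ D.posUnipotent F := by
    rw [posUnipotent_eq]; exact C.gmap_grp _ (fun r hr => hr.1) hv
  have h1 : v⁻¹ * gmap D σ.toRingHom v = h * (gmap D σ.toRingHom h)⁻¹ := by
    rw [eq_mul_inv_iff_mul_eq, mul_assoc, hbfix, inv_mul_cancel_left]
  have h2 : v⁻¹ * gmap D σ.toRingHom v ∈ D.posUnipotent F ⊓ D.diagonalSubgroup F :=
    Subgroup.mem_inf.2 ⟨mul_mem (inv_mem (by rw [posUnipotent_eq]; exact hv)) hσv,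
      h1 ▸ mul_mem hh (inv_mem (C.gmap_diag _ hh))⟩
  have h3 : v⁻¹ * gmap D σ.toRingHom v = 1 :=
    C.eq_one_of_uni_mono (Subgroup.mem_inf.1 h2).1 (C.diag_le_monomial (Subgroup.mem_inf.1 h2).2)
  have hvfix : gmap D σ.toRingHom v = v := (inv_mul_eq_one.1 h3).symm
  have hhfix : gmap D σ.toRingHom h = h := (mul_inv_eq_one.1 (h1.symm.trans h3)).symm
  obtain ⟨k₁, hk₁, hk₁'⟩ := Subgroup.mem_map.1 (hgrp _ C.closedSet_pos v hv hvfix)
  refine ⟨k₁, hk₁, h, hh, m * k₀, mul_mem (C.monomial_le_group hm) hk₀, hhfix, ?_⟩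
  rw [map_mul, hk₀', hk₁', hbv, ← hn]
  group

/-- The character of the roots with given values at the simple roots. -/
def rootChr (T : Fast) {D : ChevalleyDatum} (z : Fin D.rank → Kˣ) (v : ℕ) : Kˣ := ∏ k : Fin D.rank, z k ^ T.aux.coef v k

theorem chrOf_of_cartan (C : Checked D T) (i : K →+* F) {c : Fin D.rank → Fˣ} {z : Fin D.rank → Kˣ}
    (h : ∀ k, C.cartanMap c k = Units.map i.toMonoidHom (z k)) {v : ℕ} (hv : v < D.nroots) :
    C.chrOf c v = i (rootChr T z v : Kˣ) := by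
  rw [C.chrOf_lin c hv]
  show _ = ((Units.map i.toMonoidHom (rootChr T z v) : Fˣ) : F)
  rw [rootChr, map_prod]
  refine congrArg Units.val (Finset.prod_congr rfl fun k _ => ?_)
  rw [← C.cartanMap_apply, h, map_zpow]

/-- `a` becomes a torus element with the simple root values `z`. -/
def IsTor (C : Checked D T) (i : K →+* F) (a : GL D.Idx K) (z : Fin D.rank → Kˣ) : Prop :=
  ∃ c : Fin D.rank → Fˣ, gmap D i a = C.torus c ∧ ∀ k, C.cartanMap c k = Units.map i.toMonoidHom (z k)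

theorem IsTor.pow {C : Checked D T} {i : K →+* F} {a : GL D.Idx K} {z : Fin D.rank → Kˣ} (h : IsTor C i a z)
    (n : ℕ) : IsTor C i (a ^ n) (z ^ n) := by
  obtain ⟨c, h1, h2⟩ := h
  refine ⟨c ^ n, by rw [map_pow, h1]; exact (map_pow C.torusHom c n).symm, fun k => ?_⟩
  rw [map_pow, Pi.pow_apply, Pi.pow_apply, h2, map_pow]

theorem IsTor.mul {C : Checked D T} {i : K →+* F} {a b : GL D.Idx K} {z w : Fin D.rank → Kˣ} (h : IsTor C i a z)
    (h' : IsTor C i b w) : IsTor C i (a * b) (z * w) := by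
  obtain ⟨c, h1, h2⟩ := h
  obtain ⟨c', h1', h2'⟩ := h'
  refine ⟨c * c', by rw [map_mul, h1, h1']; exact (map_mul C.torusHom c c').symm, fun k => ?_⟩
  rw [map_mul, Pi.mul_apply, Pi.mul_apply, h2, h2', map_mul]

theorem IsTor.inv {C : Checked D T} {i : K →+* F} {a : GL D.Idx K} {z : Fin D.rank → Kˣ} (h : IsTor C i a z) :
    IsTor C i a⁻¹ z⁻¹ := by
  obtain ⟨c, h1, h2⟩ := h
  refine ⟨c⁻¹, by rw [map_inv, h1]; exact (map_inv C.torusHom c).symm, fun k => ?_⟩
  rw [map_inv, Pi.inv_apply, Pi.inv_apply, h2, map_inv]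

theorem IsTor.conj_mem {C : Checked D T} {i : K →+* F} {a : GL D.Idx K} {z : Fin D.rank → Kˣ} (h : IsTor C i a z)
    {g : GL D.Idx K} (hg : g ∈ D.group K) : a * g * a⁻¹ ∈ D.group K := by
  obtain ⟨c, h1, h2⟩ := h
  have hle : D.group K ≤ (D.group K).comap (MulAut.conj a).toMonoidHom := C.group_le fun r hr t => by
    show a * C.xg r t * a⁻¹ ∈ D.group K
    have : a * C.xg r t * a⁻¹ = C.xg r ((rootChr T z r : Kˣ) * t) := by
      refine gmap_injective i ?_
      rw [map_mul, map_mul, map_inv, h1, C.gmap_xg i hr, C.gmap_xg i hr, C.torus_xg c hr, map_mul,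
        chrOf_of_cartan C i h2 hr]
    rw [this]
    exact C.xg_mem_group hr _
  exact hle hg

theorem cartanMap_map (C : Checked D T) (i : K →+* F) (y : Fin D.rank → Kˣ) (k : Fin D.rank) :
    C.cartanMap (fun j => Units.map i.toMonoidHom (y j)) k = Units.map i.toMonoidHom (C.cartanMap y k) := by
  rw [C.cartanMap_apply, C.cartanMap_apply, map_prod]
  exact Finset.prod_congr rfl fun j _ => (map_zpow _ _ _).symm

theorem IsTor.mem_group {C : Checked D T} {i : K →+* F} {a : GL D.Idx K} {y : Fin D.rank → Kˣ}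
    (h : IsTor C i a (C.cartanMap y)) : a ∈ D.group K := by
  obtain ⟨c, h1, h2⟩ := h
  have : a = C.torus y := by
    refine gmap_injective i ?_
    rw [h1, C.gmap_torus, ← mul_inv_eq_one]
    show C.torusHom c * (C.torusHom _)⁻¹ = 1
    rw [← map_inv, ← map_mul]
    refine (C.torus_eq_one_iff _).2 ?_
    rw [map_mul, map_inv, mul_inv_eq_one]
    funext k
    rw [h2, cartanMap_map C i y k]
  rw [this]
  exact C.diag_le_group (C.torus_mem y)

/-- Every element over the extension fixed by Frobenius factors through a torus element. -/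
theorem exists_tor (C : Checked D T) (i : K →+* F) (σ : F ≃+* F) (hi : ∀ x : F, σ x = x ↔ x ∈ i.range)
    {a : GL D.Idx K} (ha : gmap D i a ∈ D.group F) :
    ∃ k₁ ∈ D.group K, ∃ (h : GL D.Idx K) (z : Fin D.rank → Kˣ), IsTor C i h z ∧
      ∃ k₂ ∈ D.group K, a = k₁ * h * k₂ := by
  have hσi : σ.toRingHom.comp i = i := RingHom.ext fun y => (hi (i y)).2 ⟨y, rfl⟩
  obtain ⟨k₁, hk₁, h, hh, k₂, hk₂, hfix, e⟩ := fixed_decomp C i σ hi ha (by rw [gmap_gmap, hσi])
  obtain ⟨c, rfl⟩ := C.exists_torus hh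
  have hval : ∀ k, ∃ y : K, i y = (C.cartanMap c k : F) := fun k => by
    refine (hi _).1 ?_
    have h1 : C.cartanMap ((fun j => Units.map σ.toRingHom.toMonoidHom (c j)) * c⁻¹) = 1 := by
      rw [← C.torus_eq_one_iff]
      show C.torusHom _ = 1
      rw [map_mul, map_inv, mul_inv_eq_one]
      exact (C.gmap_torus _ c).symm.trans hfix
    rw [map_mul, map_inv, mul_inv_eq_one] at h1
    have h2 := congrArg Units.val (congrFun h1 k)
    rw [cartanMap_map C σ.toRingHom c k] at h2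
    exact h2
  choose y hy using hval
  have hy0 : ∀ k, y k ≠ 0 := fun k e => (C.cartanMap c k).ne_zero (by rw [← hy k, e, map_zero])
  refine ⟨k₁, hk₁, k₁⁻¹ * a * k₂⁻¹, fun k => Units.mk0 (y k) (hy0 k), ⟨c, ?_, fun k => Units.ext (hy k).symm⟩,
    k₂, hk₂, by group⟩
  rw [map_mul, map_mul, map_inv, map_inv, e]
  group

theorem gmap_unit {S S' : Sym} (H : SymData D T S S') (H' : SymData D T S' S) (i : K →+* F) :
    gmap D i (H.unit H') = H.unit H' := by
  refine Units.ext ?_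
  funext a b
  show i (S.mat D K a b) = S.mat D F a b
  rcases b with j | v
  · simp only [Sym.mat, Matrix.of_apply, Sum.elim_inl, bh_apply]
    rcases a with j' | u <;> simp [apply_ite i]
  · simp only [Sym.mat, Matrix.of_apply, Sum.elim_inr, Pi.smul_apply, smul_eq_mul, bv_apply]
    rcases a with j' | u <;> simp [apply_ite i]

theorem unit_torus (C : Checked D T) {S : Sym} (H : SymData D T S S) (c : Fin D.rank → Fˣ) :
    ∃ c' : Fin D.rank → Fˣ, H.unit H * C.torus c * (H.unit H)⁻¹ = C.torus c' ∧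
      ∀ k : Fin D.rank, C.cartanMap c' k = C.cartanMap c ⟨S.p k, H.p_lt k k.2⟩ := by
  let p : Fin D.rank ≃ Fin D.rank :=
    { toFun := fun k => ⟨S.p k, H.p_lt k k.2⟩
      invFun := fun k => ⟨S.p k, H.p_lt k k.2⟩
      left_inv := fun k => Fin.ext (H.p_inv k k.2)
      right_inv := fun k => Fin.ext (H.p_inv k k.2) }
  have hcm : ∀ k, C.cartanMap (fun j => c (p j)) k = C.cartanMap c (p k) := by
    intro k
    rw [C.cartanMap_apply, C.cartanMap_apply]
    refine Fintype.prod_equiv p _ _ fun j => ?_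
    show c (p j) ^ D.cartan j (D.simple k) = c (p j) ^ D.cartan (S.p j) (D.simple (S.p k))
    rw [← H.simple k k.2, H.cartan _ (C.root.simple_lt k k.2) j j.2]
  refine ⟨fun j => c (p j), ?_, hcm⟩
  have hchr : ∀ v < D.nroots, C.chrOf (fun j => c (p j)) (S.r v) = C.chrOf c v := by
    intro v hv
    rw [C.chrOf_lin _ (H.r_lt v hv), C.chrOf_lin c hv]
    refine congrArg Units.val (Fintype.prod_equiv p _ _ fun k => ?_)
    rw [← C.cartanMap_apply, ← C.cartanMap_apply, hcm]
    congr 1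
    show _ = T.aux.coef v (S.p k)
    conv_lhs => rw [← H.p_inv k k.2]
    rw [H.coef v hv _ (H.p_lt k k.2)]
  rw [mul_inv_eq_iff_eq_mul]
  refine Units.ext ?_
  rw [Units.val_mul, Units.val_mul, C.val_torus, C.val_torus]
  show S.mat D F * _ = _ * S.mat D F
  refine ext_cols (fun j hj => ?_) fun v hv => ?_
  · rw [← Matrix.mulVec_mulVec, ← Matrix.mulVec_mulVec, dg_bh _ hj, SymData.mat_bh hj, dg_bh _ (H.p_lt j hj)]
  · rw [← Matrix.mulVec_mulVec, ← Matrix.mulVec_mulVec, dg_bv, Matrix.mulVec_smul, SymData.mat_bv hv,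
      Matrix.mulVec_smul, dg_bv, smul_smul, smul_smul, hchr v hv, mul_comm]

/-- An integer matrix moves a vector into the image of the Cartan map. -/
theorem exists_cartan (C : Checked D T) {G : Type*} [Field G] (z : Fin D.rank → Gˣ)
    (R S : Matrix (Fin D.rank) (Fin D.rank) ℤ)
    (h : R * (Matrix.of fun a b : Fin D.rank => D.cartan a (D.simple b)) = S) :
    ∃ y : Fin D.rank → Gˣ, ∀ j, C.cartanMap y j = ∏ k, z k ^ S k j := by
  refine ⟨fun a => ∏ k, z k ^ R k a, fun j => ?_⟩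
  rw [C.cartanMap_apply]
  simp only [← Finset.prod_zpow, ← zpow_mul]
  rw [Finset.prod_comm]
  refine Finset.prod_congr rfl fun k _ => ?_
  rw [← h, Matrix.mul_apply, zpow_sum']
  rfl

end Cfsg.Agent.Lib.Chev.E6Cyclic
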