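import Cfsg.Agent.Lib.Chev.CoxTorus.Weyl

/-!
Averaging a functional modulo a large prime over its stabiliser; stabilisers of regular functionals.
-/

set_option autoImplicit false

namespace Cfsg.Agent.Lib.Chev.E6Cyclic

open Cfsg.Lie Cfsg.Agent.Lib Cfsg.Agent.Lib.Chev Polynomial
open Cfsg.Agent.Lib.Chev.CoxTorus (wMat sgPerm fnl fnl_simple fnl_sg cV cV_sg wMat_pow wMat_eq_one val_sgPerm
  eq_one_of_pow_prime exists_refl exists_dominant)

variable {D : ChevalleyDatum} {T : Fast} {F : Type*} [Field F]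

theorem exists_avg (C : Checked D T) {r : ℕ} [Fact r.Prime] (hlr : D.rank + 1 < r) {a : Fin D.rank → ZMod r}
    (ha : a ≠ 0) : ∃ (b : Fin D.rank → ℤ) (h : ZMod r), h ≠ 0 ∧ b ≠ 0 ∧
      (∀ k, ((b k : ℤ) : ZMod r) = h * a k) ∧
      (∀ v < D.nroots, ((fnl T D b v : ℤ) : ZMod r) = h * fnl T D a v) ∧
      (∀ v < D.nroots, fnl T D a v = 0 → fnl T D b v = 0) ∧
      ∀ m ∈ D.monomialSubgroup F, (∀ v < D.nroots, fnl T D a (C.sg m v) = fnl T D a v) →
        ∀ v < D.nroots, fnl T D b (C.sg m v) = fnl T D b v := by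
  classical
  have hpowid : ∀ m : ↥(D.monomialSubgroup F), ∀ i : ℕ, sgPerm C m ^ i = 1 →
      wMat C m.1 ^ i = 1 := by
    intro m i h
    rw [← wMat_pow C m.2 i]
    refine wMat_eq_one C fun v hv => ?_
    have := congrArg (fun π : Equiv.Perm (Fin D.nroots) => (π ⟨v, hv⟩ : ℕ)) h
    simp only [Equiv.Perm.coe_one, id_eq] at this
    rw [← map_pow, val_sgPerm, SubmonoidClass.coe_pow] at this
    exact this
  -- the stabiliser, as a group of permutations
  let lamF : Fin D.nroots → ZMod r := fun v => fnl T D a v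
  let St : Subgroup (Equiv.Perm (Fin D.nroots)) :=
    { carrier := {π | ∀ v, lamF (π v) = lamF v}
      one_mem' := fun v => rfl
      mul_mem' := fun {x y} hx hy v => (hx _).trans (hy v)
      inv_mem' := fun {x} hx v => by
        conv_rhs => rw [← x.apply_symm_apply v]
        exact (hx (x.symm v)).symm }
  let H := (sgPerm (F := F) C).range ⊓ St
  have hH : ¬ r ∣ Nat.card H := by
    intro hdvd
    obtain ⟨π, hπ⟩ := exists_prime_orderOf_dvd_card' r hdvd
    obtain ⟨m, hm⟩ := π.2.1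
    have hπr : sgPerm C m ^ r = 1 := by
      rw [hm, ← hπ, ← SubmonoidClass.coe_pow, pow_orderOf_eq_one]; rfl
    have hU := eq_one_of_pow_prime (Fact.out : r.Prime) hlr (hpowid m r hπr)
    have : π = 1 := by
      refine Subtype.ext (Equiv.ext fun v => Fin.ext ?_)
      rw [← hm, val_sgPerm]
      show C.sg m.1 v = v
      refine C.root_ext (C.sg_lt m.2 v.2) v.2 fun j hj => ?_
      have := congrFun (cV_sg C m.2 v.2) ⟨j, hj⟩
      rwa [hU, Matrix.vecMul_one] at this
    rw [this, orderOf_one] at hπ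
    exact (Fact.out : r.Prime).ne_one hπ.symm
  have : Fintype H := Fintype.ofFinite H
  let a' : Fin D.rank → ℤ := fun k => ((a k).val : ℤ)
  let b : Fin D.rank → ℤ := fun k =>
    ∑ π : H, fnl T D a' ((π.1 : Equiv.Perm (Fin D.nroots)) ⟨D.simple k, C.root.simple_lt k k.2⟩ : ℕ)
  have hb : ∀ v : Fin D.nroots, fnl T D b v = ∑ π : H, fnl T D a' ((π.1 : Equiv.Perm (Fin D.nroots)) v : ℕ) := by
    intro v
    simp only [fnl, b, Finset.mul_sum]
    rw [Finset.sum_comm]
    refine Finset.sum_congr rfl fun π _ => ?_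
    obtain ⟨m, hm⟩ := π.2.1
    rw [← hm]
    simp only [val_sgPerm]
    have := fnl_sg C a' m.2 v.2
    simp only [fnl, Finset.mul_sum] at this
    exact this.symm
  have hinv : ∀ π : H, ∀ v : Fin D.nroots, fnl T D b ((π.1 : Equiv.Perm (Fin D.nroots)) v : ℕ) = fnl T D b v := by
    intro π v
    rw [hb, hb]
    exact Fintype.sum_equiv (Equiv.mulRight π) _ _ fun x => rfl
  have hmod : ∀ v : Fin D.nroots, ((fnl T D b v : ℤ) : ZMod r) = (Nat.card H : ZMod r) * fnl T D a v := by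
    intro v
    rw [hb, Int.cast_sum, Finset.sum_congr rfl (fun π _ => show
      ((fnl T D a' ((π.1 : Equiv.Perm (Fin D.nroots)) v : ℕ) : ℤ) : ZMod r) = fnl T D a v from ?_), Finset.sum_const,
      Finset.card_univ, ← Nat.card_eq_fintype_card, nsmul_eq_mul]
    rw [← show lamF ((π.1 : Equiv.Perm (Fin D.nroots)) v) = fnl T D a v from π.2.2 v]
    simp [fnl, a', lamF]
  have hHne : (Nat.card H : ZMod r) ≠ 0 := fun h => hH ((ZMod.natCast_eq_zero_iff _ r).1 h)
  have hb0 : b ≠ 0 := by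
    intro h
    refine ha (funext fun k => ?_)
    have := hmod ⟨D.simple k, C.root.simple_lt k k.2⟩
    simp only [fnl_simple C] at this
    rw [h, Pi.zero_apply, Int.cast_zero] at this
    exact (mul_eq_zero.1 this.symm).resolve_left hHne
  have hzero : ∀ v < D.nroots, fnl T D a v = 0 → fnl T D b v = 0 := by
    intro v hv hlam
    obtain ⟨m, hm, href⟩ := exists_refl (F := F) C hv
    have hsg : ∀ {R : Type} [CommRing R] (c : Fin D.rank → R), ∀ u < D.nroots,
        fnl T D c (C.sg m u) = fnl T D c u - (pair D v u : R) * fnl T D c v := by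
      intro R _ c u hu
      simp only [fnl, Finset.mul_sum, ← Finset.sum_sub_distrib]
      exact Finset.sum_congr rfl fun j _ => by rw [href u hu j j.2]; push_cast; ring
    have hmemH : sgPerm C ⟨m, hm⟩ ∈ H := ⟨⟨_, rfl⟩, fun u => by
      show fnl T D a (C.sg m u) = fnl T D a u
      rw [hsg a u u.2, hlam, mul_zero, sub_zero]⟩
    have h1 := hinv ⟨_, hmemH⟩ ⟨v, hv⟩
    rw [val_sgPerm] at h1
    rw [hsg b v hv, C.pair_self hv] at h1
    push_cast at h1
    linarith
  refine ⟨b, (Nat.card H : ZMod r), hHne, hb0, fun k => ?_, fun v hv => hmod ⟨v, hv⟩, hzero, fun m hm hfix v hv => ?_⟩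
  · have h1 := hmod ⟨D.simple k, C.root.simple_lt k k.2⟩
    simpa only [fnl_simple C] using h1
  · have hmH : sgPerm C ⟨m, hm⟩ ∈ H := ⟨⟨_, rfl⟩, fun u => hfix u u.2⟩
    exact hinv ⟨_, hmH⟩ ⟨v, hv⟩

theorem stab_trivial (C : Checked D T) {r : ℕ} [Fact r.Prime] (hlr : D.rank + 1 < r) {a : Fin D.rank → ZMod r}
    (ha : a ≠ 0) (hreg : ∀ v < D.nroots, fnl T D a v ≠ 0) {w : GL D.Idx F} (hw : w ∈ D.monomialSubgroup F)
    (hfix : ∀ v < D.nroots, fnl T D a (C.sg w v) = fnl T D a v) {v : ℕ} (hv : v < D.nroots) : C.sg w v = v := by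
  classical
  obtain ⟨b, h, hh, -, -, hmod, -, hinv⟩ := exists_avg (F := F) C hlr ha
  have hbreg : ∀ v < D.nroots, fnl T D b v ≠ 0 := fun v hv h0 => by
    have := hmod v hv
    rw [h0, Int.cast_zero] at this
    exact hreg v hv ((mul_eq_zero.1 this.symm).resolve_left hh)
  obtain ⟨m, hm, hdom⟩ := exists_dominant (F := F) C b hbreg
  have hd' : m⁻¹ * w * m ∈ D.diagonalSubgroup F := by
    have hmem : m⁻¹ * w * m ∈ D.monomialSubgroup F := mul_mem (mul_mem (inv_mem hm) hw) hm
    refine C.mem_diag_of_simple_pos hmem fun i hi => ?_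
    have hp := C.root.simple_lt i hi
    have hu := C.sg_lt hmem hp
    refine (C.key_trichotomy hu).resolve_right fun hneg => ?_
    have h1 := hdom _ (C.root.pos_simple hi)
    have h2 := hdom _ ((C.neg_pos_iff hu).2 hneg)
    rw [C.sg_neg hm hu] at h2
    have h3 : fnl T D b (C.sg m (C.sg (m⁻¹ * w * m) (D.simple i))) = fnl T D b (C.sg m (D.simple i)) := by
      rw [C.sg_mul (mul_mem (inv_mem hm) hw) hm hp, C.sg_mul (inv_mem hm) hw (C.sg_lt hm hp),
        C.sg_sg_inv hm (C.sg_lt hw (C.sg_lt hm hp))]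
      exact hinv w hw hfix _ (C.sg_lt hm hp)
    have h4 : fnl T D b (D.neg (C.sg m (C.sg (m⁻¹ * w * m) (D.simple i)))) =
        -fnl T D b (C.sg m (C.sg (m⁻¹ * w * m) (D.simple i))) := by
      simp only [fnl, ← Finset.sum_neg_distrib]
      exact Finset.sum_congr rfl fun j _ => by rw [C.root.coef_neg (C.sg_lt hm hu) j.2]; push_cast; ring
    omega
  have hu : C.sg m⁻¹ v < D.nroots := C.sg_lt (inv_mem hm) hv
  have h5 := C.sg_diag hd' hu
  rw [C.sg_mul (mul_mem (inv_mem hm) hw) hm hu, C.sg_sg_inv hm hv, C.sg_mul (inv_mem hm) hw hv] at h5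
  have h6 := congrArg (C.sg m) h5
  rwa [C.sg_sg_inv hm (C.sg_lt hw hv), C.sg_sg_inv hm hv] at h6

end Cfsg.Agent.Lib.Chev.E6Cyclic
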