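import Cfsg.Agent.Lib.Chev.E6Cyclic.Setup
import Cfsg.Agent.Lib.Chev.TwistGens
import Mathlib.GroupTheory.Sylow
import Mathlib.RingTheory.RootsOfUnity.PrimitiveRoots

/-!
The centralizer, in the adjoint group of type E₆, of an element of prime order dividing `Φ₁₂(q)`.
-/

set_option autoImplicit false

namespace Cfsg.Agent.Lib.Chev.E6Cyclic

open Cfsg.Lie Cfsg.Agent.Lib Cfsg.Agent.Lib.Chev Polynomial Homocyclic
open Cfsg.Agent.Lib.Chev.CoxTorus (wMat sgPerm fnl zpow_eq_iff cast_fnl chrOf_exp conj_decomp mulVec_eq_zero_iff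
  mono_torus_iff exists_exp)

theorem exists_gen {F L : Type*} [Field F] [Field L] [Fintype L] {q r : ℕ} [Fact r.Prime] (hq2 : 2 ≤ q)
    (hr : 12 < r) (hord : orderOf (q : ZMod r) = 12) (hL : Fintype.card L = q ^ 12) (i : F →+* L) (σ : L ≃+* L)
    (hσ : ∀ t, σ t = t ^ q) (hi : ∀ t : L, σ t = t ↔ t ∈ i.range) {x : GL chevE6.Idx F}
    (hx : x ∈ chevE6.group F) (hxo : orderOf x = r) :
    ∃ a₁ : GL chevE6.Idx F, gmap chevE6 i a₁ ∈ chevE6.group L ∧
      orderOf a₁ = (q ^ 4 - q ^ 2 + 1) * (q ^ 2 + q + 1) ∧ a₁ * x = x * a₁ ∧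
      ∀ a : GL chevE6.Idx F, gmap chevE6 i a ∈ chevE6.group L → a * x = x * a → a ∈ Subgroup.zpowers a₁ := by
  classical
  set C := E6.checked with hC
  have hσi : σ.toRingHom.comp i = i := RingHom.ext fun y => (hi (i y)).2 ⟨y, rfl⟩
  have hQ : (Fintype.card L : ZMod r) = 1 := by
    rw [hL, Nat.cast_pow]; exact orderOf_dvd_iff_pow_eq_one.1 hord.dvd
  have hgt : ∀ c : Fin chevE6.rank → Lˣ, gmap chevE6 σ.toRingHom (C.torus c) = C.torus (c ^ q) := fun c => by
    rw [C.gmap_torus]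
    exact congrArg C.torus (funext fun k => Units.ext (by simp [hσ]))
  let X : ↥(chevE6.group L) := ⟨gmap chevE6 i x, C.gmap_group i hx⟩
  have hXo : orderOf X = r := by
    rw [← Subgroup.orderOf_coe, orderOf_injective (gmap chevE6 i) (gmap_injective i), hxo]
  obtain ⟨g, hg⟩ := conj_subgroup C (degs := [2, 5, 6, 8, 9, 12]) (by decide +kernel) (by simp) (r := r)
    (by
      intro h
      rcases (Nat.Prime.dvd_mul Fact.out).1 (show r ∣ 2 * (5 * (6 * (8 * (9 * 12)))) by simpa using h) with h | h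
      · have := Nat.le_of_dvd (by norm_num) h; omega
      rcases (Nat.Prime.dvd_mul Fact.out).1 h with h | h
      · have := Nat.le_of_dvd (by norm_num) h; omega
      rcases (Nat.Prime.dvd_mul Fact.out).1 h with h | h
      · have := Nat.le_of_dvd (by norm_num) h; omega
      rcases (Nat.Prime.dvd_mul Fact.out).1 h with h | h
      · have := Nat.le_of_dvd (by norm_num) h; omega
      rcases (Nat.Prime.dvd_mul Fact.out).1 h with h | h
      · have := Nat.le_of_dvd (by norm_num) h; omega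
      · have := Nat.le_of_dvd (by norm_num) h; omega)
    hQ (Subgroup.zpowers X) (IsPGroup.of_card (n := 1) (by rw [Nat.card_zpowers, hXo, pow_one]))
  obtain ⟨c, hc0⟩ := C.exists_torus (hg X (Subgroup.mem_zpowers X))
  set P : GL chevE6.Idx L := (g : GL chevE6.Idx L) with hPdef
  have hP : P ∈ chevE6.group L := g.2
  set Xv : GL chevE6.Idx L := gmap chevE6 i x with hXv
  have hc : P * Xv * P⁻¹ = C.torus c := by
    rw [hc0, Subgroup.coe_mul, Subgroup.coe_mul, Subgroup.coe_inv]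
  have hcr : C.cartanMap (c ^ r) = 1 := by
    rw [← C.torus_eq_one_iff]
    show C.torusHom (c ^ r) = 1
    rw [map_pow]
    show C.torus c ^ r = 1
    have hXr : Xv ^ r = 1 := by
      have := congrArg Subtype.val (hXo ▸ pow_orderOf_eq_one X : X ^ r = 1)
      exact this
    rw [← hc, conj_pow, hXr, mul_one, mul_inv_cancel]
  have hc1 : C.cartanMap c ≠ 1 := by
    intro h
    rw [← C.torus_eq_one_iff, ← hc, mul_inv_eq_one, mul_eq_left] at h
    have : X = 1 := Subtype.ext h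
    rw [this, orderOf_one] at hXo
    exact (Fact.out : r.Prime).ne_one hXo.symm
  have hrM : r ∣ Fintype.card Lˣ := by
    rw [Fintype.card_units, ← ZMod.natCast_eq_zero_iff, Nat.cast_sub Fintype.card_pos, hQ, Nat.cast_one, sub_self]
  obtain ⟨ζ, hζ⟩ := exists_prime_orderOf_dvd_card r hrM
  have hζp : IsPrimitiveRoot ζ r := hζ ▸ IsPrimitiveRoot.orderOf ζ
  have : NeZero r := ⟨(Fact.out : r.Prime).ne_zero⟩
  have hz : ∀ k, ∃ m : ℤ, ζ ^ m = C.cartanMap c k := by
    intro k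
    refine Subgroup.mem_zpowers_iff.1 ?_
    rw [hζp.zpowers_eq, mem_rootsOfUnity, ← Pi.pow_apply, ← map_pow, hcr, Pi.one_apply]
  choose a hza using hz
  let lam : Fin chevE6.rank → ZMod r := fun k => (a k : ZMod r)
  have hlam : lam ≠ 0 := by
    intro h0
    refine hc1 (funext fun k => ?_)
    rw [Pi.one_apply, ← hza, ← zpow_zero ζ, zpow_eq_iff ζ hζ]
    simpa using congrFun h0 k
  have hcexp : ∀ v < chevE6.nroots, C.chrOf c v = ((ζ ^ fnl E6.fast chevE6 a v : Lˣ) : L) := fun v hv =>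
    chrOf_exp C (fun k => (hza k).symm) hv
  have hcexp' : ∀ v < chevE6.nroots, C.chrOf (c ^ q) v = ((ζ ^ ((q : ℤ) * fnl E6.fast chevE6 a v) : Lˣ) : L) := by
    intro v hv
    rw [chrOf_exp C (c := c ^ q) (g := ζ) (e := fun k => a k * q) (fun k => by
      rw [map_pow, Pi.pow_apply, ← hza, ← zpow_natCast, ← zpow_mul]) hv]
    congr 2
    simp only [fnl, Finset.mul_sum, Int.cast_id]
    exact Finset.sum_congr rfl fun k _ => by ring
  set n₀ := gmap chevE6 σ.toRingHom P * P⁻¹ with hn₀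
  have hn₀g : n₀ ∈ chevE6.group L := mul_mem (C.gmap_group _ hP) (inv_mem hP)
  have hXfix : gmap chevE6 σ.toRingHom Xv = Xv := by rw [hXv, gmap_gmap, hσi]
  have hrel : C.torus (c ^ q) * n₀ = n₀ * C.torus c := by
    rw [← hgt, ← hc, map_mul, map_mul, map_inv, hXfix, hn₀]; group
  obtain ⟨n, hn, hnrel, hmono⟩ := conj_decomp C hn₀g hrel
  have heig : ∀ v < chevE6.nroots,
      fnl E6.fast chevE6 lam (C.sg n⁻¹ v) = (q : ZMod r) * fnl E6.fast chevE6 lam v := by
    intro v hv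
    have hv' := C.sg_lt (inv_mem hn) hv
    have h1 := hnrel _ hv'
    rw [C.sg_sg_inv hn hv, hcexp _ hv', hcexp' v hv] at h1
    have h2 := (zpow_eq_iff ζ hζ _ _).1 (Units.ext h1)
    rw [Int.cast_mul, cast_fnl, cast_fnl, Int.cast_natCast] at h2
    exact h2.symm
  set M := wMat C n⁻¹ with hMdef
  obtain ⟨hchar, h0⟩ := charpoly_eq (inv_mem hn) (by omega) hlam hord (mulVec_of_fnl C heig)
  rw [← hMdef] at hchar h0
  have hreg := regular (inv_mem hn) (by omega) hlam hord heig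
  have hne : ∀ v < chevE6.nroots, C.chrOf c v ≠ 1 ∧ C.chrOf (c ^ q) v ≠ 1 := by
    intro v hv
    rw [hcexp v hv, hcexp' v hv]
    have hq0 : (q : ZMod r) ≠ 0 := by
      intro hq0
      rw [hq0, orderOf_zero] at hord
      omega
    constructor <;> intro h1 <;> rw [Units.val_eq_one, ← zpow_zero ζ, zpow_eq_iff ζ hζ] at h1
    · rw [cast_fnl, Int.cast_zero] at h1; exact hreg v hv h1
    · rw [Int.cast_mul, cast_fnl, Int.cast_natCast, Int.cast_zero] at h1
      exact hreg v hv ((mul_eq_zero.1 h1).resolve_left hq0)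
  obtain ⟨hn₀m, hsg⟩ := hmono fun v hv => hne v hv.1
  have hcent : ∀ g ∈ chevE6.group L, C.torus c * g = g * C.torus c → ∃ e, C.torus e = g := by
    intro g hg hgc
    obtain ⟨m, hm, hmrel, hmm⟩ := conj_decomp C hg hgc
    obtain ⟨hgm, hgsg⟩ := hmm fun v hv => ⟨(hne v hv.1).1, (hne v hv.1).1⟩
    refine C.exists_torus (C.mem_diag_of_sg hgm fun v hv => ?_)
    rw [hgsg v hv]
    refine stab_trivial C (by rw [rank_E6]; omega) hlam hreg hm (fun u hu => ?_) hv
    have h1 := hmrel u hu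
    rw [hcexp u hu, hcexp _ (C.sg_lt hm hu)] at h1
    have h2 := (zpow_eq_iff ζ hζ _ _).1 (Units.ext h1)
    rwa [cast_fnl, cast_fnl] at h2
  -- the lattice
  set N := (q ^ 4 - q ^ 2 + 1) * (q ^ 2 + q + 1) with hNdef
  have hN : (p12 * p3).eval (q : ℤ) = (N : ℤ) := by
    rw [hNdef, Nat.cast_mul, cast_expr]
    simp [p12, p3]
  set Mq := q ^ 12 - 1 with hMqdef
  have hM0 : 0 < Mq := Nat.sub_pos_of_lt (Nat.one_lt_pow (by norm_num) (by omega))
  have hNM : N ∣ Mq := by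
    have h1 : (p12 * p3).eval (q : ℤ) ∣ (Polynomial.X ^ 12 - 1 : ℤ[X]).eval (q : ℤ) :=
      eval_dvd ⟨-1 + Polynomial.X - Polynomial.X ^ 2 + Polynomial.X ^ 4 - Polynomial.X ^ 5 + Polynomial.X ^ 6, by rw [p12, p3]; ring⟩
    rw [hN, eval_sub, eval_pow, eval_X, eval_one] at h1
    have h2 : ((Mq : ℕ) : ℤ) = (q : ℤ) ^ 12 - 1 := by
      rw [hMqdef, Nat.cast_sub (Nat.one_le_pow _ _ (by omega))]; simp
    rw [← h2] at h1
    exact_mod_cast h1
  have hp : ∀ p : ℕ, p.Prime → p ∣ N →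
      (derivative ((p12 * p3).map (Int.castRingHom (ZMod p)))).eval (q : ZMod p) ≠ 0 ∨ ¬ p ^ 2 ∣ N := by
    intro p hpp hpN
    have := Fact.mk hpp
    rcases eq_or_ne p 3 with rfl | hp3
    · exact Or.inr (not_nine_dvd q)
    have hev : ((p12 * p3).map (Int.castRingHom (ZMod p))).eval (q : ZMod p) = 0 := by
      rw [eval_map, ← Int.cast_natCast q, ← eq_intCast (Int.castRingHom (ZMod p)), eval₂_at_apply, hN]
      simpa using (ZMod.natCast_eq_zero_iff N p).2 hpN
    refine Or.inl (simple_root_mod hp3 ?_ hev)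
    rintro rfl
    simp only [p12, p3, Polynomial.map_mul, Polynomial.map_add, Polynomial.map_sub, Polynomial.map_pow, map_X,
      Polynomial.map_one, eval_mul, eval_add, eval_sub, eval_pow, eval_X, eval_one] at hev
    rcases mul_eq_zero.1 hev with h | h
    · exact (mod_two _).1 h
    · exact (mod_two _).2 h
  obtain ⟨γ, hγ⟩ := IsCyclic.exists_generator (α := Lˣ)
  have hγo : orderOf γ = Mq := by
    rw [orderOf_eq_card_of_forall_mem_zpowers hγ, Nat.card_eq_fintype_card, Fintype.card_units, hL]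
  obtain ⟨w, hwo, hwker, hwgen⟩ := exists_generator (by rw [rank_E6]; norm_num) M hchar h0 hN hNM hM0 hp
  obtain ⟨ew, hew⟩ : ∃ ew : Fin chevE6.rank → ℤ, ∀ k, (ew k : ZMod Mq) = w k :=
    ⟨fun k => (w k).cast, fun k => ZMod.intCast_zmod_cast _⟩
  -- the coordinates are divisible by three
  have hthree : ∀ k, ∃ e : ℤ, ((3 * e : ℤ) : ZMod Mq) = w k := by
    intro k
    by_cases h3 : 3 ∣ Mq
    · have h1 : (Mq : ℤ) ∣ N * ew k := by
        rw [← ZMod.intCast_zmod_eq_zero_iff_dvd]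
        have h2 := congrFun (addOrderOf_nsmul_eq_zero w) k
        rw [hwo, Pi.smul_apply, nsmul_eq_mul, ← hew] at h2
        push_cast
        exact h2
      suffices h : (3 : ℤ) ∣ ew k by
        obtain ⟨e, he⟩ := h
        exact ⟨e, by rw [← he, hew]⟩
      by_cases h3N : 3 ∣ N
      · obtain ⟨N', hN'⟩ := h3N
        have h9 : (9 : ℤ) ∣ N * ew k :=
          (Int.natCast_dvd_natCast.2 (nine_dvd q (by omega) ⟨N', hN'⟩)).trans h1
        have h5 : ((N : ℕ) : ℤ) = 3 * (N' : ℤ) := by rw [hN']; push_cast; ring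
        rw [h5, show (9 : ℤ) = 3 * 3 by norm_num, mul_assoc] at h9
        have h4 : ¬ (3 : ℤ) ∣ (N' : ℤ) := by
          intro h
          refine not_nine_dvd q ?_
          rw [← hNdef, hN', pow_two]
          exact Nat.mul_dvd_mul_left 3 (Int.natCast_dvd_natCast.1 h)
        exact (Int.prime_three.dvd_or_dvd ((mul_dvd_mul_iff_left (by norm_num)).1 h9)).resolve_left h4
      · refine (Int.prime_three.dvd_or_dvd ((Int.natCast_dvd_natCast.2 h3).trans h1)).resolve_left ?_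
        exact fun h => h3N (Int.natCast_dvd_natCast.1 h)
    · have hco : IsCoprime (3 : ℤ) (Mq : ℤ) :=
        (Int.prime_three.coprime_iff_not_dvd).2 fun h => h3 (Int.natCast_dvd_natCast.1 h)
      obtain ⟨s, t, hst⟩ := hco
      refine ⟨s * ew k, ?_⟩
      rw [← hew, ← sub_eq_zero, ← Int.cast_sub, ZMod.intCast_zmod_eq_zero_iff_dvd]
      exact ⟨-(t * ew k), by linear_combination ew k * hst⟩
  choose e3 he3 using hthree
  obtain ⟨c₁, hc₁⟩ := exists_cartan_cube (fun k => γ ^ e3 k)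
  have hc₁' : ∀ k, C.cartanMap c₁ k = γ ^ ew k := fun k => by
    rw [hC, congrFun hc₁ k, ← zpow_natCast, ← zpow_mul, zpow_eq_iff γ hγo, hew, ← he3]
    push_cast
    ring
  have hn' : ∀ v < chevE6.nroots, C.sg n₀ v = C.sg n v := hsg
  have hfixiff : ∀ (e : Fin chevE6.rank → ℤ) (c₂ : Fin chevE6.rank → Lˣ), (∀ k, C.cartanMap c₂ k = γ ^ e k) →
      (gmap chevE6 σ.toRingHom (P⁻¹ * C.torus c₂ * P) = P⁻¹ * C.torus c₂ * P ↔
        ((Matrix.scalar (Fin chevE6.rank) (q : ℤ) - wMat C n⁻¹).map (Int.cast : ℤ → ZMod Mq)).mulVec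
          (fun k => (e k : ZMod Mq)) = 0) := by
    intro e c₂ he
    have h1 : gmap chevE6 σ.toRingHom (P⁻¹ * C.torus c₂ * P) = P⁻¹ * C.torus c₂ * P ↔
        n₀ * C.torus c₂ = C.torus (c₂ ^ q) * n₀ := by
      rw [map_mul, map_mul, map_inv, hgt, hn₀]
      constructor <;> intro h3
      · calc gmap chevE6 σ.toRingHom P * P⁻¹ * C.torus c₂
            = gmap chevE6 σ.toRingHom P * (P⁻¹ * C.torus c₂ * P) * P⁻¹ := by group
          _ = _ := by rw [← h3]; group
      · calc (gmap chevE6 σ.toRingHom P)⁻¹ * C.torus (c₂ ^ q) * gmap chevE6 σ.toRingHom P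
            = (gmap chevE6 σ.toRingHom P)⁻¹ * (C.torus (c₂ ^ q) * (gmap chevE6 σ.toRingHom P * P⁻¹)) * P := by group
          _ = _ := by rw [← h3]; group
    rw [h1, mono_torus_iff C hn₀m, mulVec_eq_zero_iff C hn]
    refine forall₂_congr fun v hv => ?_
    rw [hn' v hv, chrOf_exp C he hv, chrOf_exp C (c := c₂ ^ q) (g := γ) (e := fun k => e k * q) (fun k => by
      rw [map_pow, Pi.pow_apply, he, ← zpow_natCast, ← zpow_mul]) (C.sg_lt hn hv), Units.val_inj,
      zpow_eq_iff γ hγo, cast_fnl, cast_fnl, eq_comm]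
    refine Eq.congr rfl ?_
    simp only [fnl, Finset.mul_sum]
    exact Finset.sum_congr rfl fun k _ => by push_cast; ring
  set y₀ := P⁻¹ * C.torus c₁ * P with hy₀
  have hy₀g : y₀ ∈ chevE6.group L :=
    mul_mem (mul_mem (inv_mem hP) (C.diag_le_group (C.torus_mem c₁))) hP
  obtain ⟨a₁, ha₁⟩ := exists_gmap_of_fixed (D := chevE6) i σ.toRingHom hi
    ((hfixiff ew c₁ hc₁').2 (by rw [funext hew]; exact hwker))
  have ha₁' : gmap chevE6 i a₁ = y₀ := ha₁
  have hord1 : orderOf a₁ = N := by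
    rw [← orderOf_injective (gmap chevE6 i) (gmap_injective i), ha₁', hy₀]
    have h1 : orderOf (P⁻¹ * C.torus c₁ * P) = orderOf (C.torus c₁) := by
      have := orderOf_injective (MulAut.conj P⁻¹).toMonoidHom (MulAut.conj P⁻¹).injective (C.torus c₁)
      simpa using this
    rw [h1, ← hwo]
    have hpow : ∀ j : ℕ, C.torus c₁ ^ j = 1 ↔ j • w = 0 := by
      intro j
      rw [show C.torus c₁ ^ j = C.torus (c₁ ^ j) from (map_pow C.torusHom c₁ j).symm, C.torus_eq_one_iff, map_pow]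
      simp only [funext_iff, Pi.pow_apply, Pi.one_apply, hc₁', Pi.smul_apply, Pi.zero_apply]
      refine forall_congr' fun k => ?_
      rw [← zpow_natCast, ← zpow_mul, ← zpow_zero γ, zpow_eq_iff γ hγo, nsmul_eq_mul, ← hew]
      push_cast
      rw [mul_comm]
    refine Nat.dvd_antisymm (orderOf_dvd_of_pow_eq_one ((hpow _).2 (addOrderOf_nsmul_eq_zero w)))
      (addOrderOf_dvd_of_nsmul_eq_zero ((hpow _).1 (pow_orderOf_eq_one _)))
  have hXP : Xv = P⁻¹ * C.torus c * P := by rw [← hc]; group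
  have hcomm1 : a₁ * x = x * a₁ := by
    refine gmap_injective i ?_
    rw [map_mul, map_mul, ha₁', ← hXv, hXP, hy₀]
    calc P⁻¹ * C.torus c₁ * P * (P⁻¹ * C.torus c * P) = P⁻¹ * (C.torus c₁ * C.torus c) * P := by group
      _ = P⁻¹ * (C.torus c * C.torus c₁) * P := by rw [C.diag_comm (C.torus_mem c₁) (C.torus_mem c)]
      _ = _ := by group
  refine ⟨a₁, ha₁' ▸ hy₀g, hord1, hcomm1, fun b hb hbx => ?_⟩
  obtain ⟨Gi, hGi⟩ : ∃ Gi, Gi = gmap chevE6 i b := ⟨_, rfl⟩
  have hGc : Gi * Xv = Xv * Gi := by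
    rw [hXv, hGi, ← map_mul, ← map_mul, hbx]
  have hcomm : C.torus c * (P * Gi * P⁻¹) = (P * Gi * P⁻¹) * C.torus c := by
    rw [← hc]
    calc P * Xv * P⁻¹ * (P * Gi * P⁻¹) = P * (Xv * Gi) * P⁻¹ := by group
      _ = P * (Gi * Xv) * P⁻¹ := by rw [hGc]
      _ = _ := by group
  obtain ⟨c₂, hc₂⟩ := hcent _ (mul_mem (mul_mem hP (hGi ▸ hb)) (inv_mem hP)) hcomm
  obtain ⟨e, he⟩ := exists_exp hγ (C.cartanMap c₂)
  have hG : Gi = P⁻¹ * C.torus c₂ * P := by rw [hc₂]; group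
  have hker := (hfixiff e c₂ he).1 (by rw [← hG, hGi, gmap_gmap, hσi])
  obtain ⟨j, hj⟩ := AddSubgroup.mem_zmultiples_iff.1 (hwgen _ hker)
  refine Subgroup.mem_zpowers_iff.2 ⟨j, gmap_injective i ?_⟩
  rw [map_zpow, ha₁', ← hGi, hG, hy₀]
  have hz : (P⁻¹ * C.torus c₁ * P) ^ j = P⁻¹ * C.torus c₁ ^ j * P := by
    have := conj_zpow (a := P⁻¹) (b := C.torus c₁) (i := j)
    simpa using this
  rw [hz, show C.torus c₁ ^ j = C.torus c₂ from ?_]
  rw [show C.torus c₁ ^ j = C.torus (c₁ ^ j) from (map_zpow C.torusHom c₁ j).symm, ← mul_inv_eq_one]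
  show C.torusHom _ * (C.torusHom _)⁻¹ = 1
  rw [← map_inv, ← map_mul]
  refine (C.torus_eq_one_iff _).2 ?_
  rw [map_mul, map_inv, mul_inv_eq_one]
  funext k
  rw [map_zpow, Pi.pow_apply, hc₁', he, ← zpow_mul, zpow_eq_iff γ hγo]
  have := congrFun hj k
  rw [Pi.smul_apply, zsmul_eq_mul, ← hew] at this
  push_cast
  rw [mul_comm]; exact this

end Cfsg.Agent.Lib.Chev.E6Cyclic
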