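import Cfsg.Agent.Lib.Chev.CoxTorus.Poly
import Mathlib.LinearAlgebra.Dimension.Constructions
import Mathlib.LinearAlgebra.FiniteDimensional.Lemmas

/-!
Orbits of row vectors in the kernel of an irreducible polynomial of a matrix.
-/

set_option autoImplicit false

namespace Cfsg.Agent.Lib.Chev.E6Cyclic

open Polynomial

variable {l : ℕ} {A : Matrix (Fin l) (Fin l) ℚ}

theorem vecMul_aeval_smul_sum (A : Matrix (Fin l) (Fin l) ℚ) (y : Fin l → ℚ) {n : ℕ} (g : Fin n → ℚ) :
    Matrix.vecMul y (aeval A (∑ i : Fin n, monomial (i : ℕ) (g i))) =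
      ∑ i : Fin n, g i • Matrix.vecMul y (A ^ (i : ℕ)) := by
  rw [map_sum, Matrix.vecMul_sum]
  refine Finset.sum_congr rfl fun i _ => ?_
  rw [aeval_monomial, ← Algebra.smul_def, Matrix.vecMul_smul]

theorem eq_zero_of_coprime {p p' : ℚ[X]} (h : IsCoprime p p') {y : Fin l → ℚ}
    (hy : Matrix.vecMul y (aeval A p) = 0) (hy' : Matrix.vecMul y (aeval A p') = 0) : y = 0 := by
  obtain ⟨u, v, huv⟩ := h
  have h1 : aeval A p * aeval A u + aeval A p' * aeval A v = 1 := by
    rw [← map_mul, ← map_mul, ← map_add, show p * u + p' * v = 1 by rw [← huv]; ring, map_one]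
  rw [← Matrix.vecMul_one y, ← h1, Matrix.vecMul_add, ← Matrix.vecMul_vecMul, ← Matrix.vecMul_vecMul, hy, hy',
    Matrix.zero_vecMul, Matrix.zero_vecMul, add_zero]

theorem li_orbit {p : ℚ[X]} (hp : Irreducible p) {n : ℕ} (hn : p.natDegree = n) {y : Fin l → ℚ} (hy : y ≠ 0)
    (h : Matrix.vecMul y (aeval A p) = 0) :
    LinearIndependent ℚ (fun i : Fin n => Matrix.vecMul y (A ^ (i : ℕ))) := by
  rw [Fintype.linearIndependent_iff]
  intro g hg i
  set G : ℚ[X] := ∑ i : Fin n, monomial (i : ℕ) (g i) with hG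
  have h1 : Matrix.vecMul y (aeval A G) = 0 := by rw [hG, vecMul_aeval_smul_sum]; exact hg
  have hcoef : ∀ i : Fin n, G.coeff i = g i := fun i => by
    simp only [hG, finsetSum_coeff, coeff_monomial]
    rw [Finset.sum_eq_single i (fun j _ hj => if_neg fun h => hj (Fin.ext h))
      (fun h => absurd (Finset.mem_univ i) h), if_pos rfl]
  by_contra hgi
  have hG0 : G ≠ 0 := fun h0 => hgi (by rw [← hcoef, h0, coeff_zero])
  have hdeg : G.natDegree < n := by
    refine lt_of_le_of_lt (natDegree_sum_le_of_forall_le _ _ fun i _ => ?_) (Nat.sub_lt (Fin.pos i) one_pos)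
    exact (natDegree_monomial_le _).trans (Nat.le_sub_one_of_lt i.2)
  have hnd : ¬ p ∣ G := fun hd => by
    have := natDegree_le_of_dvd hd hG0
    omega
  exact hy (eq_zero_of_coprime ((hp.coprime_iff_not_dvd).2 hnd) h h1)

/-- When two orbits fill the space, each kernel is spanned by its orbit. -/
theorem mem_span_orbit {p p' : ℚ[X]} (hp : Irreducible p) (hp' : Irreducible p') (hco : IsCoprime p p') {n n' : ℕ}
    (hn : p.natDegree = n) (hn' : p'.natDegree = n') (hl : l ≤ n + n') {y y' d : Fin l → ℚ} (hy : y ≠ 0)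
    (h : Matrix.vecMul y (aeval A p) = 0) (hy' : y' ≠ 0) (h' : Matrix.vecMul y' (aeval A p') = 0)
    (hd : Matrix.vecMul d (aeval A p) = 0) :
    d ∈ Submodule.span ℚ (Set.range fun i : Fin n => Matrix.vecMul y (A ^ (i : ℕ))) := by
  let K : ℚ[X] → Submodule ℚ (Fin l → ℚ) := fun f => LinearMap.ker (aeval A f).vecMulLinear
  have hK : ∀ (f : ℚ[X]) (x : Fin l → ℚ), x ∈ K f ↔ Matrix.vecMul x (aeval A f) = 0 := fun f x => Iff.rfl
  have hsub : ∀ (f : ℚ[X]) (x : Fin l → ℚ) (k : ℕ), Matrix.vecMul x (aeval A f) = 0 →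
      Submodule.span ℚ (Set.range fun i : Fin k => Matrix.vecMul x (A ^ (i : ℕ))) ≤ K f := by
    intro f x k hx
    rw [Submodule.span_le]
    rintro _ ⟨i, rfl⟩
    rw [SetLike.mem_coe, hK]
    have hc : A ^ (i : ℕ) * aeval A f = aeval A f * A ^ (i : ℕ) := by
      rw [← aeval_X_pow (R := ℚ) A, ← map_mul, ← map_mul, mul_comm]
    rw [Matrix.vecMul_vecMul, hc, ← Matrix.vecMul_vecMul, hx, Matrix.zero_vecMul]
  have e1 := (finrank_span_eq_card (li_orbit hp hn hy h)).symm.trans_le (Submodule.finrank_mono (hsub p y n h))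
  have e2 := (finrank_span_eq_card (li_orbit hp' hn' hy' h')).symm.trans_le
    (Submodule.finrank_mono (hsub p' y' n' h'))
  rw [Fintype.card_fin] at e1 e2
  have hinf : K p ⊓ K p' = ⊥ := by
    rw [Submodule.eq_bot_iff]
    intro x hx
    exact eq_zero_of_coprime hco hx.1 hx.2
  have e3 := Submodule.finrank_sup_add_finrank_inf_eq (K p) (K p')
  rw [hinf, finrank_bot, add_zero] at e3
  have e4 := Submodule.finrank_le (K p ⊔ K p')
  rw [Module.finrank_fin_fun] at e4
  rw [Submodule.eq_of_le_of_finrank_le (hsub p y n h) (by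
    rw [finrank_span_eq_card (li_orbit hp hn hy h), Fintype.card_fin]; omega)]
  exact hd

end Cfsg.Agent.Lib.Chev.E6Cyclic
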