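import Cfsg.Agent.Lib.Chev.Homocyclic.Cases
import Cfsg.Agent.Lib.Chev.E6Cyclic.Linear
import Mathlib.Data.Fintype.Pi

/-!
The Cartan form of E₆: positivity, and no nontrivial orthogonal idempotent.
-/

set_option autoImplicit false

namespace Cfsg.Agent.Lib.Chev.E6Cyclic

open Cfsg.Lie Cfsg.Agent.Lib Cfsg.Agent.Lib.Chev Homocyclic

abbrev Mat6 := Matrix (Fin chevE6.rank) (Fin chevE6.rank) ℤ

/-- The Cartan matrix of E₆, literally. -/
def aMat : Mat6 :=
  Matrix.of fun i j => (([[2, 0, -1, 0, 0, 0], [0, 2, 0, -1, 0, 0], [-1, 0, 2, -1, 0, 0], [0, -1, -1, 2, -1, 0],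
    [0, 0, 0, -1, 2, -1], [0, 0, 0, 0, -1, 2]] : List (List ℤ)).getD (i : ℕ) []).getD (j : ℕ) 0

theorem cMat_eq : cMat chevE6 = aMat := by decide +kernel

theorem quad_aux (z : Fin 6 → ℤ) : ∃ Q W : ℤ, (∑ j : Fin 6, (∑ i : Fin 6, z i *
      (([[2, 0, -1, 0, 0, 0], [0, 2, 0, -1, 0, 0], [-1, 0, 2, -1, 0, 0], [0, -1, -1, 2, -1, 0],
        [0, 0, 0, -1, 2, -1], [0, 0, 0, 0, -1, 2]] : List (List ℤ)).getD (i : ℕ) []).getD (j : ℕ) 0) * z j) = Q ∧
      Q = 2 * W ∧ 0 ≤ Q ∧ (Q = 0 → ∀ i, z i = 0) := by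
  refine ⟨_, z 0 * z 0 + z 1 * z 1 + z 2 * z 2 + z 3 * z 3 + z 4 * z 4 + z 5 * z 5 - z 0 * z 2 - z 1 * z 3 -
    z 2 * z 3 - z 3 * z 4 - z 4 * z 5, rfl, ?_⟩
  have h : (∑ j : Fin 6, (∑ i : Fin 6, z i *
      (([[2, 0, -1, 0, 0, 0], [0, 2, 0, -1, 0, 0], [-1, 0, 2, -1, 0, 0], [0, -1, -1, 2, -1, 0],
        [0, 0, 0, -1, 2, -1], [0, 0, 0, 0, -1, 2]] : List (List ℤ)).getD (i : ℕ) []).getD (j : ℕ) 0) * z j) =
      2 * (z 0 * z 0 + z 1 * z 1 + z 2 * z 2 + z 3 * z 3 + z 4 * z 4 + z 5 * z 5 - z 0 * z 2 - z 1 * z 3 -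
        z 2 * z 3 - z 3 * z 4 - z 4 * z 5) := by
    simp [Fin.sum_univ_succ, show Fin.succ (2 : Fin 5) = (3 : Fin 6) from rfl,
      show Fin.succ (3 : Fin 5) = (4 : Fin 6) from rfl, show Fin.succ (4 : Fin 5) = (5 : Fin 6) from rfl]
    ring
  refine ⟨h, ?_⟩
  rw [h]
  obtain ⟨a, b, c, d, e, f, ha, hb, hc, hd, he, hf⟩ :
      ∃ a b c d e f : ℤ, a = z 0 ∧ b = z 1 ∧ c = z 2 ∧ d = z 3 ∧ e = z 4 ∧ f = z 5 :=
    ⟨_, _, _, _, _, _, rfl, rfl, rfl, rfl, rfl, rfl⟩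
  rw [← ha, ← hb, ← hc, ← hd, ← he, ← hf]
  have hid : 6 * (2 * (a * a + b * b + c * c + d * d + e * e + f * f - a * c - b * d - c * d - d * e - e * f)) =
      3 * ((2 * a - c) * (2 * a - c)) + 3 * ((2 * f - e) * (2 * f - e)) + 3 * ((2 * b - d) * (2 * b - d)) +
        (3 * c - 2 * d) * (3 * c - 2 * d) + (3 * e - 2 * d) * (3 * e - 2 * d) + d * d := by ring
  have h1 := mul_self_nonneg (2 * a - c)
  have h2 := mul_self_nonneg (2 * f - e)
  have h3 := mul_self_nonneg (2 * b - d)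
  have h4 := mul_self_nonneg (3 * c - 2 * d)
  have h5 := mul_self_nonneg (3 * e - 2 * d)
  have h6 := mul_self_nonneg d
  refine ⟨by linarith, fun h0 i => ?_⟩
  have g1 : 2 * a - c = 0 := mul_self_eq_zero.1 (by linarith)
  have g2 : 2 * f - e = 0 := mul_self_eq_zero.1 (by linarith)
  have g3 : 2 * b - d = 0 := mul_self_eq_zero.1 (by linarith)
  have g4 : 3 * c - 2 * d = 0 := mul_self_eq_zero.1 (by linarith)
  have g5 : 3 * e - 2 * d = 0 := mul_self_eq_zero.1 (by linarith)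
  have g6 : d = 0 := mul_self_eq_zero.1 (by linarith)
  fin_cases i <;> simp <;> omega

theorem quad (z : Fin chevE6.rank → ℤ) : ∃ Q W : ℤ, Matrix.vecMul z aMat ⬝ᵥ z = Q ∧
    Q = 2 * W ∧ 0 ≤ Q ∧ (Q = 0 → ∀ i, z i = 0) := quad_aux z

theorem connected_aux (ε : Fin 6 → Bool) (h02 : ε 0 = ε 2) (h23 : ε 2 = ε 3) (h13 : ε 1 = ε 3) (h34 : ε 3 = ε 4)
    (h45 : ε 4 = ε 5) : ∀ i j, ε i = ε j := by
  intro i j
  fin_cases i <;> fin_cases j <;> simp_all

theorem connected (ε : Fin chevE6.rank → Bool) (h : ∀ i j, aMat i j ≠ 0 → ε i = ε j) : ∀ i j, ε i = ε j :=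
  connected_aux ε (h _ _ (by decide)) (h _ _ (by decide)) (h _ _ (by decide)) (h _ _ (by decide)) (h _ _ (by decide))

theorem diag_two : ∀ i, aMat i i = 2 := by decide +kernel

theorem add_eq_two {Q Q' W W' : ℤ} (h : Q + Q' = 2) (hQ : Q = 2 * W) (hQ' : Q' = 2 * W') (h0 : 0 ≤ Q)
    (h0' : 0 ≤ Q') : Q = 0 ∨ Q' = 0 := by omega

/-- The root lattice of E₆ is orthogonally indecomposable. -/
theorem idem_trivial {e : Mat6} (h2 : e * e = e) (hsym : e * aMat = aMat * e.transpose) : e = 0 ∨ e = 1 := by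
  classical
  have hAe : e * aMat * e.transpose = e * aMat := by rw [mul_assoc, ← hsym, ← mul_assoc, h2]
  set e' : Mat6 := 1 - e with he'
  have hAe' : e' * aMat * e'.transpose = aMat - e * aMat := by
    rw [he', Matrix.transpose_sub, Matrix.transpose_one, mul_sub, mul_one, sub_mul, one_mul, sub_mul, hAe, hsym]
    abel
  have hval : ∀ (N : Mat6) i, (N * aMat * N.transpose) i i = Matrix.vecMul (N i) aMat ⬝ᵥ N i := fun N i => by
    rw [Matrix.mul_apply_eq_vecMul, Matrix.mul_apply_eq_vecMul, Matrix.vecMul_transpose]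
    exact dotProduct_comm _ _
  have hcase : ∀ i, (∀ j, e i j = 0) ∨ (∀ j, e i j = (1 : Mat6) i j) := by
    intro i
    obtain ⟨Q, W, hQ, hW, h0, hz⟩ := quad (e i)
    obtain ⟨Q', W', hQ', hW', h0', hz'⟩ := quad (e' i)
    rw [← hval, hAe] at hQ
    rw [← hval, hAe', Matrix.sub_apply, diag_two] at hQ'
    rcases add_eq_two (by rw [← hQ, ← hQ']; ring) hW hW' h0 h0' with h | h
    · exact Or.inl (hz h)
    · refine Or.inr fun j => ?_
      have := hz' h j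
      rw [he', Matrix.sub_apply, sub_eq_zero] at this
      exact this.symm
  let ε : Fin chevE6.rank → Bool := fun i => decide (e i i = 1)
  have hε : ∀ i j, e i j = if ε i then (1 : Mat6) i j else 0 := by
    intro i j
    rcases hcase i with h | h
    · simp [ε, h]
    · simp [ε, h]
  have hdiag : e = Matrix.diagonal fun i => if ε i then (1 : ℤ) else 0 := by
    ext i j
    rw [hε, Matrix.diagonal_apply, Matrix.one_apply]
    cases ε i <;> simp
  have hconn := connected ε fun i j hij => by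
    have h := congrFun (congrFun hsym i) j
    rw [hdiag, Matrix.diagonal_transpose, Matrix.diagonal_mul, Matrix.mul_diagonal] at h
    cases hi : ε i <;> cases hj : ε j <;> simp_all
  by_cases h : ∃ i, ε i = true
  · obtain ⟨i, hi⟩ := h
    refine Or.inr ?_
    rw [hdiag]
    ext a b
    rw [Matrix.diagonal_apply, hconn a i, hi, Matrix.one_apply]
    simp
  · push Not at h
    refine Or.inl ?_
    rw [hdiag]
    ext a b
    rcases eq_or_ne a b with rfl | hab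
    · rw [Matrix.diagonal_apply_eq, if_neg (h a)]; rfl
    · rw [Matrix.diagonal_apply_ne _ hab]; rfl

end Cfsg.Agent.Lib.Chev.E6Cyclic
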