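import Cfsg.Agent.Lib.Chev.E6Cyclic.Cent
import Mathlib.FieldTheory.Finite.Extension
import Mathlib.GroupTheory.QuotientGroup.Basic

/-!
E₆(q) has a self-centralizing cyclic subgroup of order `(q⁴ - q² + 1)(q² + q + 1) / gcd(3, q - 1)`.

The point at `q ≡ 1 (mod 3)`: the torus is not contained in the simple group, as the graph automorphism inverts
the quotient of the adjoint group, but fixes the automorphism induced on a Sylow subgroup of the torus.
-/

set_option autoImplicit false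

namespace Cfsg.Agent.Lib.Chev.E6Cyclic

open Cfsg.Lie Cfsg.Agent.Lib Cfsg.Agent.Lib.Chev Polynomial Homocyclic
open Cfsg.Agent.Lib.Chev.CoxTorus (zpow_eq_iff)

/-- Every tuple of simple root values is realised in the adjoint group. -/
theorem exists_isTor {F L : Type*} [Field F] [Fintype F] [Field L] [Fintype L] {q : ℕ} (hF : Fintype.card F = q)
    (hL : Fintype.card L = q ^ 12) (h3 : 3 ∣ q - 1) (i : F →+* L) (σ : L ≃+* L)
    (hi : ∀ t : L, σ t = t ↔ t ∈ i.range) (z : Fin chevE6.rank → Fˣ) :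
    ∃ a, gmap chevE6 i a ∈ chevE6.group L ∧ IsTor E6.checked i a z := by
  classical
  have hq2 : 2 ≤ q := hF ▸ Fintype.one_lt_card
  obtain ⟨γ, hγ⟩ := IsCyclic.exists_generator (α := Lˣ)
  have hγo : orderOf γ = q ^ 12 - 1 := by
    rw [orderOf_eq_card_of_forall_mem_zpowers hγ, Nat.card_eq_fintype_card, Fintype.card_units, hL]
  have hS : 3 ∣ ∑ j ∈ Finset.range 12, q ^ j := by
    rw [← ZMod.natCast_eq_zero_iff, Nat.cast_sum]
    have : (q : ZMod 3) = 1 := by
      have h := (ZMod.natCast_eq_zero_iff (q - 1) 3).2 h3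
      rw [Nat.cast_sub (by omega), Nat.cast_one, sub_eq_zero] at h
      exact h
    simp only [Nat.cast_pow, this, one_pow, Finset.sum_const, Finset.card_range]
    decide
  have hcube : ∀ k, ∃ y : Lˣ, y ^ 3 = Units.map i.toMonoidHom (z k) := by
    intro k
    obtain ⟨e, he⟩ := Subgroup.mem_zpowers_iff.1 (hγ (Units.map i.toMonoidHom (z k)))
    have h1 : γ ^ (e * ((q - 1 : ℕ) : ℤ)) = 1 := by
      rw [zpow_mul, he, zpow_natCast, ← map_pow, ← hF, ← Fintype.card_units, pow_card_eq_one, map_one]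
    rw [← orderOf_dvd_iff_zpow_eq_one, hγo,
      ← geom_sum_mul_of_one_le (by omega : 1 ≤ q) 12, Nat.cast_mul] at h1
    have h4 := (mul_dvd_mul_iff_right (by
      have : 0 < q - 1 := by omega
      exact_mod_cast this.ne')).1 h1
    obtain ⟨e', rfl⟩ := (Int.natCast_dvd_natCast.2 hS).trans h4
    exact ⟨γ ^ e', by rw [← he, ← zpow_natCast, ← zpow_mul, mul_comm]⟩
  choose y hy using hcube
  obtain ⟨c, hc⟩ := exists_cartan_cube y
  have hc' : ∀ k, E6.checked.cartanMap c k = Units.map i.toMonoidHom (z k) := fun k => by rw [congrFun hc k, hy]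
  obtain ⟨a, ha⟩ := exists_gmap_of_fixed (D := chevE6) i σ.toRingHom hi (g := E6.checked.torus c) (by
    rw [E6.checked.gmap_torus, ← mul_inv_eq_one]
    show E6.checked.torusHom _ * (E6.checked.torusHom _)⁻¹ = 1
    rw [← map_inv, ← map_mul]
    refine (E6.checked.torus_eq_one_iff _).2 ?_
    rw [map_mul, map_inv, mul_inv_eq_one]
    funext k
    rw [cartanMap_map E6.checked σ.toRingHom c k, hc']
    exact Units.ext ((hi _).2 ⟨_, rfl⟩))
  exact ⟨a, ha ▸ E6.checked.diag_le_group (E6.checked.torus_mem c), c, ha, hc'⟩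

/-- If a torus element lies in the group, its simple root values are in the image of the Cartan map. -/
theorem cartan_of_isTor {D : ChevalleyDatum} {T : Fast} {F L : Type*} [Field F] [Field L] (C : Checked D T)
    (i : F →+* L) {a : GL D.Idx F} {z : Fin D.rank → Fˣ} (h : IsTor C i a z) (ha : a ∈ D.group F) :
    ∃ y, C.cartanMap y = z := by
  obtain ⟨c, h1, h2⟩ := h
  have hb : a ∈ D.borelSubgroup F := by
    refine C.mem_borel_of_simple ha fun j hj => ?_
    have hp := C.root.simple_lt j hj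
    have e : a * C.xg (D.simple j) 1 * a⁻¹ = C.xg (D.simple j) (((rootChr T z (D.simple j) : Fˣ) : F) * 1) := by
      refine gmap_injective i ?_
      rw [map_mul, map_mul, map_inv, h1, C.gmap_xg i hp, C.gmap_xg i hp, C.torus_xg c hp, map_mul,
        chrOf_of_cartan C i h2 hp]
    rw [e, posUnipotent_eq]
    exact C.xg_mem (S := {r | D.IsPosRoot r}) (C.root.pos_simple hj) _
  obtain ⟨u, hu, t, ht, rfl⟩ := C.mem_borel.1 hb
  obtain ⟨y, rfl⟩ := C.exists_torus ht
  have hu1 : gmap D i u = 1 := by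
    refine C.eq_one_of_uni_mono ?_ (C.diag_le_monomial ?_)
    · rw [posUnipotent_eq] at hu ⊢
      exact C.gmap_grp i (fun r hr => hr.1) hu
    · rw [map_mul] at h1
      rw [eq_mul_inv_of_mul_eq h1]
      exact mul_mem (C.torus_mem c) (inv_mem (C.gmap_diag i (C.torus_mem y)))
  rw [map_mul, hu1, one_mul, C.gmap_torus, ← mul_inv_eq_one] at h1
  have h4 : C.torusHom ((fun j => Units.map i.toMonoidHom (y j)) * c⁻¹) = 1 := by
    rw [map_mul, map_inv]; exact h1
  have h5 := (C.torus_eq_one_iff _).1 h4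
  rw [map_mul, map_inv, mul_inv_eq_one] at h5
  refine ⟨y, funext fun k => Units.map_injective (f := i.toMonoidHom) i.injective ?_⟩
  rw [← cartanMap_map C i y k, congrFun h5 k, h2]

theorem coe_zpowers_mem {G : Type*} [Group G] {H : Subgroup G} {x : H} {y : G} (h : y ∈ Subgroup.zpowers (x : G))
    : y ∈ H := by
  obtain ⟨j, rfl⟩ := Subgroup.mem_zpowers_iff.1 h
  exact (x ^ j).2

theorem exists_cyclic {F : Type*} [Field F] [Fintype F] (q : ℕ) (hF : Fintype.card F = q) :
    ∃ H : Subgroup ↥(chevE6.group F), IsCyclic ↥H ∧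
      Nat.card ↥H = (q ^ 4 - q ^ 2 + 1) * (q ^ 2 + q + 1) / Nat.gcd 3 (q - 1) ∧
      Subgroup.centralizer (H : Set ↥(chevE6.group F)) = H := by
  classical
  set C := E6.checked with hC
  have hq2 : 2 ≤ q := hF ▸ Fintype.one_lt_card
  -- a prime
  obtain ⟨r, hr, hrdvd⟩ := Nat.exists_prime_and_dvd (n := q ^ 4 - q ^ 2 + 1) (by
    have := Nat.pow_lt_pow_right (by omega : 1 < q) (by norm_num : 2 < 4)
    omega)
  have := Fact.mk hr
  have hev : (q : ZMod r) ^ 4 - (q : ZMod r) ^ 2 + 1 = 0 := by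
    rw [← cast_expr]; exact (ZMod.natCast_eq_zero_iff _ r).2 hrdvd
  have hr2 : r ≠ 2 := by rintro rfl; exact (mod_two _).1 hev
  have hr3 : r ≠ 3 := by rintro rfl; exact (mod_three _).1 hev
  have : NeZero ((12 : ℕ) : ZMod r) := ⟨fun h => by
    have h1 : r ∣ 2 * 2 * 3 := (ZMod.natCast_eq_zero_iff 12 r).1 h
    rcases (Nat.Prime.dvd_mul hr).1 h1 with h | h
    · rcases (Nat.Prime.dvd_mul hr).1 h with h | h <;>
        exact hr2 ((Nat.prime_dvd_prime_iff_eq hr Nat.prime_two).1 h)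
    · exact hr3 ((Nat.prime_dvd_prime_iff_eq hr Nat.prime_three).1 h)⟩
  have hord : orderOf (q : ZMod r) = 12 := by
    have h : (cyclotomic 12 (ZMod r)).IsRoot (q : ZMod r) := by
      rw [← map_cyclotomic_int, cyclotomic_twelve, IsRoot, p12]
      simpa using hev
    exact (isRoot_cyclotomic_iff.1 h).eq_orderOf.symm
  have hr12 : 12 < r := by
    have hq0 : (q : ZMod r) ≠ 0 := fun h0 => by rw [h0, orderOf_zero] at hord; omega
    have h1 := Nat.le_of_dvd (by have := hr.two_le; omega) (ZMod.orderOf_dvd_card_sub_one hq0)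
    omega
  -- the extension
  obtain ⟨p, hchar⟩ := CharP.exists F
  have : Fact p.Prime := ⟨CharP.char_is_prime F p⟩
  let L := FiniteField.Extension F p 12
  let _ : Fintype L := Fintype.ofFinite L
  have hL : Fintype.card L = q ^ 12 := by
    rw [← Nat.card_eq_fintype_card, FiniteField.natCard_extension, Nat.card_eq_fintype_card, hF]
  obtain ⟨σ, hσ⟩ : ∃ σ : L ≃+* L, ∀ t, σ t = t ^ q :=
    exists_frob (hF ▸ Fintype.isPrimePow_card_of_field) (by norm_num) hL
  let i : F →+* L := algebraMap F L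
  have hsub : Set.range i ⊆ {t : L | t ^ q = t} := by
    rintro _ ⟨a, rfl⟩
    show i a ^ q = i a
    rw [← map_pow, ← hF, FiniteField.pow_card]
  have hrange : Set.range i = {t : L | t ^ q = t} := by
    refine Set.eq_of_subset_of_ncard_le hsub (le_of_eq ?_) (Set.toFinite _)
    rw [← Nat.card_coe_set_eq, ← Nat.card_coe_set_eq]
    exact (card_frob_fixed (d := 12) (by omega) hL).trans
      (by rw [Nat.card_range_of_injective i.injective, Nat.card_eq_fintype_card, hF])
  have hi : ∀ t : L, σ t = t ↔ t ∈ i.range := fun t => by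
    rw [hσ]; exact (Set.ext_iff.1 hrange t).symm
  -- the adjoint group
  let A : Subgroup (GL chevE6.Idx F) := (chevE6.group L).comap (gmap chevE6 i)
  have hGA : chevE6.group F ≤ A := fun a ha => C.gmap_group i ha
  let GA : Subgroup ↥A := (chevE6.group F).subgroupOf A
  have hmemGA : ∀ a : ↥A, a ∈ GA ↔ (a : GL chevE6.Idx F) ∈ chevE6.group F := fun a => Subgroup.mem_subgroupOf
  have hnorm : ∀ a : ↥A, ∀ g ∈ chevE6.group F,
      (a : GL chevE6.Idx F) * g * (a : GL chevE6.Idx F)⁻¹ ∈ chevE6.group F := by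
    intro a g hg
    obtain ⟨k₁, hk₁, h, z, hh, k₂, hk₂, e⟩ := exists_tor C i σ hi a.2
    rw [e, show k₁ * h * k₂ * g * (k₁ * h * k₂)⁻¹ = k₁ * (h * (k₂ * g * k₂⁻¹) * h⁻¹) * k₁⁻¹ by group]
    exact mul_mem (mul_mem hk₁ (hh.conj_mem (mul_mem (mul_mem hk₂ hg) (inv_mem hk₂)))) (inv_mem hk₁)
  have : GA.Normal := ⟨fun n hn a => (hmemGA _).2 (hnorm a _ ((hmemGA n).1 hn))⟩
  let φ := QuotientGroup.mk' GA
  have hφ : ∀ a : ↥A, φ a = 1 ↔ (a : GL chevE6.Idx F) ∈ chevE6.group F := fun a => by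
    rw [show φ a = (a : ↥A ⧸ GA) from rfl, QuotientGroup.eq_one_iff]; exact hmemGA a
  -- decomposition modulo the group
  have hdec : ∀ a : ↥A, ∃ (h : ↥A) (z : Fin chevE6.rank → Fˣ), IsTor C i (h : GL chevE6.Idx F) z ∧ φ a = φ h := by
    intro a
    obtain ⟨k₁, hk₁, h, z, hh, k₂, hk₂, e⟩ := exists_tor C i σ hi a.2
    have hhA : h ∈ A := by
      have : h = k₁⁻¹ * (a : GL chevE6.Idx F) * k₂⁻¹ := by rw [e]; group
      rw [this]; exact mul_mem (mul_mem (inv_mem (hGA hk₁)) a.2) (inv_mem (hGA hk₂))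
    refine ⟨⟨h, hhA⟩, z, hh, ?_⟩
    have e' : a = ⟨k₁, hGA hk₁⟩ * ⟨h, hhA⟩ * ⟨k₂, hGA hk₂⟩ := Subtype.ext e
    rw [e', map_mul, map_mul, (hφ ⟨k₁, hGA hk₁⟩).2 hk₁, (hφ ⟨k₂, hGA hk₂⟩).2 hk₂, one_mul, mul_one]
  set g := Nat.gcd 3 (q - 1) with hgdef
  have hg13 : g = 1 ∨ g = 3 := (Nat.dvd_prime Nat.prime_three).1 (Nat.gcd_dvd_left _ _)
  have hpowg : ∀ a : ↥A, φ a ^ g = 1 := by
    intro a
    obtain ⟨h, z, hh, e⟩ := hdec a
    rw [e, ← map_pow, hφ, Subgroup.coe_pow]
    have hz : ∃ w : Fin chevE6.rank → Fˣ, (fun k => w k ^ 3) = z ^ g := by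
      rcases hg13 with h1 | h3
      · have hcop : ∀ k, ∃ m : ℕ, (z k ^ 3) ^ m = z k := fun k =>
          exists_pow_eq_self_of_coprime (Nat.Coprime.coprime_dvd_right (by
            rw [← hF, ← Fintype.card_units]; exact orderOf_dvd_card) h1)
        choose m hm using hcop
        exact ⟨fun k => z k ^ m k, funext fun k => by
          rw [h1, pow_one, ← pow_mul, mul_comm, pow_mul, hm]⟩
      · exact ⟨z, by rw [h3]; rfl⟩
    obtain ⟨w, hw⟩ := hz
    obtain ⟨y, hy⟩ := exists_cartan_cube w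
    refine IsTor.mem_group (C := C) (i := i) (y := y) ?_
    rw [hy, hw]
    exact hh.pow g
  -- a Sylow subgroup and a central element of order `r`
  have hker : Nat.card (C.cartanMap (F := F)).ker = g := by
    rw [card_ker_E6, hF, Nat.gcd_comm]
  have hrg : ¬ r ∣ g := by
    rcases hg13 with h | h <;> rw [h] <;> intro hd
    · have := Nat.le_of_dvd (by norm_num) hd; omega
    · have := Nat.le_of_dvd (by norm_num) hd; omega
  have hrG : r ∣ Nat.card ↥GA := by
    rw [Nat.card_congr (Subgroup.subgroupOfEquivOfLe hGA).toEquiv, ← ZMod.natCast_eq_zero_iff]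
    have h1 := congrArg (fun z : ℤ => (z : ZMod r))
      (C.card_eq (F := F) (degs := [2, 5, 6, 8, 9, 12]) (by decide +kernel) (by simp) hker)
    simp only [Int.cast_natCast, Int.cast_mul, ← Int.coe_castRingHom, map_list_prod, List.map_map] at h1
    refine (mul_eq_zero.1 (h1.trans (mul_eq_zero_of_right _ (List.prod_eq_zero (List.mem_map.2 ⟨12, by simp, ?_⟩))))).resolve_left
      fun h => hrg ((ZMod.natCast_eq_zero_iff g r).1 h)
    simp [hF, orderOf_dvd_iff_pow_eq_one.1 hord.dvd]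
  obtain ⟨R⟩ : Nonempty (Sylow r ↥GA) := inferInstance
  have : Nontrivial ↥(R : Subgroup ↥GA) := by
    rw [← Finite.one_lt_card_iff_nontrivial]
    exact lt_of_lt_of_le hr.one_lt (Nat.le_of_dvd Nat.card_pos (R.dvd_card_of_dvd_card hrG))
  have : Nontrivial (Subgroup.center ↥(R : Subgroup ↥GA)) := R.isPGroup'.center_nontrivial
  obtain ⟨k, hk0, hk⟩ := (R.isPGroup'.to_subgroup (Subgroup.center _)).nontrivial_iff_card.1 this
  obtain ⟨x₀, hx₀⟩ := exists_prime_orderOf_dvd_card' (G := ↥(Subgroup.center ↥(R : Subgroup ↥GA))) r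
    (by rw [hk]; exact dvd_pow_self r hk0.ne')
  set xA : ↥A := (((x₀ : ↥(R : Subgroup ↥GA)) : ↥GA) : ↥A) with hxA
  set x : GL chevE6.Idx F := (xA : GL chevE6.Idx F) with hxdef
  have hxG : x ∈ chevE6.group F := (hmemGA _).1 ((x₀ : ↥(R : Subgroup ↥GA)) : ↥GA).2
  have hxo : orderOf x = r := by
    rw [hxdef, hxA, Subgroup.orderOf_coe, Subgroup.orderOf_coe, Subgroup.orderOf_coe, Subgroup.orderOf_coe, hx₀]
  obtain ⟨a₁, ha₁A, ha₁o, ha₁x, ha₁max⟩ := exists_gen hq2 hr12 hord hL i σ hσ hi hxG hxo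
  set N := (q ^ 4 - q ^ 2 + 1) * (q ^ 2 + q + 1) with hNdef
  set aA : ↥A := ⟨a₁, ha₁A⟩ with haA
  have hfin : IsOfFinOrder a₁ := isOfFinOrder_of_finite a₁
  -- the torus is not in the group when `g = 3`
  have hout : g = 3 → a₁ ∉ chevE6.group F := by
    intro hg3 ha₁G
    have hcentG : ∀ a : ↥A, (a : GL chevE6.Idx F) * x = x * (a : GL chevE6.Idx F) → φ a = 1 := fun a ha =>
      (hφ a).2 (coe_zpowers_mem (H := chevE6.group F) (x := ⟨a₁, ha₁G⟩) (ha₁max _ a.2 ha))
    -- the adjoint group is bigger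
    have hbig : ∃ a : ↥A, (a : GL chevE6.Idx F) ∉ chevE6.group F := by
      by_contra hall
      push Not at hall
      have hsurj : Function.Surjective (C.cartanMap (F := F)) := fun z => by
        obtain ⟨a, haA', ha⟩ := exists_isTor hF hL (hg3 ▸ Nat.gcd_dvd_right 3 (q - 1)) i σ hi z
        exact cartan_of_isTor C i ha (hall ⟨a, haA'⟩)
      have h1 : (C.cartanMap (F := F)).ker = ⊥ :=
        (MonoidHom.ker_eq_bot_iff _).2 (Finite.injective_iff_surjective.2 hsurj)
      rw [h1, Subgroup.card_bot, hg3] at hker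
      omega
    -- an element outside normalising `R`
    obtain ⟨a, haN, haG⟩ : ∃ a ∈ Subgroup.normalizer (((R : Subgroup ↥GA).map GA.subtype : Subgroup ↥A) : Set ↥A),
        a ∉ GA := by
      by_contra hall
      push Not at hall
      obtain ⟨a, ha⟩ := hbig
      refine ha ((hmemGA a).1 ?_)
      have htop := Sylow.normalizer_sup_eq_top R
      rw [sup_eq_right.2 (show _ ≤ GA from hall)] at htop
      exact htop ▸ Subgroup.mem_top a
    -- elements of order `r` of `R` are powers of `x`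
    have hRx : ∀ y : ↥A, y ∈ (R : Subgroup ↥GA).map GA.subtype → (y : GL chevE6.Idx F) ^ r = 1 →
        (y : GL chevE6.Idx F) ∈ Subgroup.zpowers x := by
      rintro _ ⟨y, hy, rfl⟩ hyr
      refine mem_zpowers_of_cyclic hfin hr (ha₁max x (hGA hxG) rfl) (ha₁max _ y.1.2 ?_) hxo hyr
      have := Subgroup.mem_center_iff.1 x₀.2 ⟨y, hy⟩
      exact congrArg (fun w : ↥(R : Subgroup ↥GA) => (((w : ↥GA) : ↥A) : GL chevE6.Idx F)) this
    have hxR : xA ∈ (R : Subgroup ↥GA).map GA.subtype := ⟨_, (x₀ : ↥(R : Subgroup ↥GA)).2, rfl⟩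
    have hxr : x ^ r = 1 := by rw [← hxo]; exact pow_orderOf_eq_one x
    obtain ⟨k, hk⟩ := Subgroup.mem_zpowers_iff.1 (hRx (a * xA * a⁻¹) ((Subgroup.mem_normalizer_iff.1 haN xA).1 hxR) (by
      rw [Subgroup.coe_mul, Subgroup.coe_mul, Subgroup.coe_inv, ← hxdef, conj_pow, hxr, mul_one, mul_inv_cancel]))
    rw [Subgroup.coe_mul, Subgroup.coe_mul, Subgroup.coe_inv, ← hxdef] at hk
    -- the graph automorphism
    set U : GL chevE6.Idx F := E6.symData.unit E6.symData with hU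
    have hUG : ∀ w ∈ chevE6.group F, U * w * U⁻¹ ∈ chevE6.group F := fun w hw =>
      (E6.symData.graphAut C E6.symData F ⟨w, hw⟩).2
    have hUA : ∀ w ∈ A, U * w * U⁻¹ ∈ A := fun w hw => by
      show gmap chevE6 i (U * w * U⁻¹) ∈ chevE6.group L
      rw [map_mul, map_mul, map_inv, hU, gmap_unit]
      exact (E6.symData.graphAut C E6.symData L ⟨_, hw⟩).2
    let τ : ↥A →* ↥A :=
      { toFun := fun w => ⟨U * w * U⁻¹, hUA _ w.2⟩
        map_one' := Subtype.ext (by show U * 1 * U⁻¹ = 1; group)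
        map_mul' := fun w w' => Subtype.ext (by
          show U * ((w : GL chevE6.Idx F) * w') * U⁻¹ = U * w * U⁻¹ * (U * w' * U⁻¹); group) }
    have hτinv : ∀ w : ↥A, φ (τ w) = (φ w)⁻¹ := by
      intro w
      obtain ⟨h, z, hh, e⟩ := hdec w
      have e1 : φ (τ w) = φ (τ h) := by
        have h1 : φ (w⁻¹ * h) = 1 := by rw [map_mul, map_inv, e, inv_mul_cancel]
        have h2 : φ (τ (w⁻¹ * h)) = 1 := (hφ _).2 (hUG _ ((hφ _).1 h1))
        rwa [map_mul, map_inv, map_mul, map_inv, inv_mul_eq_one] at h2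
      rw [e1, e]
      refine eq_inv_of_mul_eq_one_left ?_
      rw [← map_mul, hφ]
      obtain ⟨c, hc1, hc2⟩ := hh
      obtain ⟨c', hc'1, hc'2⟩ := unit_torus C E6.symData c
      have htor : IsTor C i (τ h : GL chevE6.Idx F)
          (fun k => z ⟨E6.sym.p k, E6.symData.p_lt k k.2⟩) := ⟨c', by
        show gmap chevE6 i (U * h * U⁻¹) = _
        rw [map_mul, map_mul, map_inv, hU, gmap_unit, hc1, hc'1], fun k => by rw [hc'2, hc2]⟩
      obtain ⟨y, hy⟩ := exists_cartan_sym z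
      refine IsTor.mem_group (C := C) (i := i) (y := y) ?_
      rw [hy, show (fun k : Fin chevE6.rank => z k * z ⟨E6.sym.p k, E6.symData.p_lt k k.2⟩) =
        (fun k : Fin chevE6.rank => z ⟨E6.sym.p k, E6.symData.p_lt k k.2⟩) * z from funext fun k => mul_comm _ _]
      exact htor.mul ⟨c, hc1, hc2⟩
    -- move the image of `x` back
    have hτGA : ∀ w ∈ GA, τ w ∈ GA := fun w hw => (hmemGA _).2 (hUG _ ((hmemGA w).1 hw))
    let τG : ↥GA →* ↥GA :=
      { toFun := fun w => ⟨τ w, hτGA _ w.2⟩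
        map_one' := Subtype.ext (map_one τ)
        map_mul' := fun w w' => Subtype.ext (map_mul τ _ _) }
    obtain ⟨R₂, hR₂⟩ := (R.isPGroup'.map τG).exists_le_sylow
    obtain ⟨m, hm⟩ := MulAction.exists_smul_eq ↥GA R₂ R
    set θ : ↥A →* ↥A := (MulAut.conj (m : ↥A)).toMonoidHom.comp τ with hθ
    set y : ↥A := θ xA with hy
    have hyR : y ∈ (R : Subgroup ↥GA).map GA.subtype := by
      refine ⟨m * τG (x₀ : ↥(R : Subgroup ↥GA)) * m⁻¹, ?_, rfl⟩
      suffices h : m * τG (x₀ : ↥(R : Subgroup ↥GA)) * m⁻¹ ∈ ((m • R₂ : Sylow r ↥GA) : Subgroup ↥GA) from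
        SetLike.le_def.1 (le_of_eq (congrArg Sylow.toSubgroup hm)) h
      rw [Sylow.smul_def, Sylow.pointwise_smul_def]
      rw [Subgroup.mem_pointwise_smul_iff_inv_smul_mem]
      simp only [← map_inv, MulAut.smul_def, MulAut.conj_apply, inv_inv]
      rw [show m⁻¹ * (m * τG (x₀ : ↥(R : Subgroup ↥GA)) * m⁻¹) * m = τG (x₀ : ↥(R : Subgroup ↥GA)) by group]
      exact hR₂ ⟨_, (x₀ : ↥(R : Subgroup ↥GA)).2, rfl⟩
    have hyo : orderOf (y : GL chevE6.Idx F) = r := by
      rw [Subgroup.orderOf_coe, hy, orderOf_injective θ ?_, ← Subgroup.orderOf_coe, ← hxdef, hxo]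
      intro w w' h
      have h1 : τ w = τ w' := (MulAut.conj (m : ↥A)).injective h
      have h2 : U * (w : GL chevE6.Idx F) * U⁻¹ = U * w' * U⁻¹ := congrArg Subtype.val h1
      exact Subtype.ext (by simpa using h2)
    have hyr : (y : GL chevE6.Idx F) ^ r = 1 := by rw [← hyo]; exact pow_orderOf_eq_one _
    have hycyc : (y : GL chevE6.Idx F) ∈ Subgroup.zpowers x := hRx y hyR hyr
    obtain ⟨e', he'⟩ := Subgroup.mem_zpowers_iff.1
      (mem_zpowers_of_cyclic (isOfFinOrder_of_finite x) hr hycyc (Subgroup.mem_zpowers x) hyo hxr)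
    -- `θ a` and `a` act alike
    have hxk : a * xA * a⁻¹ = xA ^ k := Subtype.ext (by
      rw [Subgroup.coe_mul, Subgroup.coe_mul, Subgroup.coe_inv, Subgroup.coe_zpow, ← hxdef, hk])
    have h1 : θ a * y * (θ a)⁻¹ = y ^ k := by
      rw [hy, ← map_inv θ a, ← map_mul, ← map_mul, hxk, map_zpow]
    have hye : y ^ e' = xA := Subtype.ext (by rw [Subgroup.coe_zpow, he'])
    have h2 : θ a * xA * (θ a)⁻¹ = xA ^ k := by
      rw [← hye, ← conj_zpow, h1, ← zpow_mul, ← zpow_mul, mul_comm]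
    have h3 : φ (a⁻¹ * θ a) = 1 := by
      refine hcentG _ ?_
      have h4 : (a⁻¹ * θ a) * xA * (a⁻¹ * θ a)⁻¹ = xA := by
        calc (a⁻¹ * θ a) * xA * (a⁻¹ * θ a)⁻¹ = a⁻¹ * (θ a * xA * (θ a)⁻¹) * a := by group
          _ = a⁻¹ * (a * xA * a⁻¹) * a := by rw [h2, hxk]
          _ = xA := by group
      exact congrArg Subtype.val (mul_inv_eq_iff_eq_mul.1 h4)
    have hφm : φ (m : ↥A) = 1 := (hφ _).2 ((hmemGA _).1 m.2)
    have h4 : φ (θ a) = (φ a)⁻¹ := by
      rw [← hτinv a]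
      show φ ((m : ↥A) * τ a * (m : ↥A)⁻¹) = _
      rw [map_mul, map_mul, map_inv, hφm, one_mul, inv_one, mul_one]
    rw [map_mul, map_inv, h4] at h3
    have h5 : φ a ^ 2 = 1 := by
      rw [← inv_inj, inv_one, pow_two, _root_.mul_inv_rev, h3]
    have h6 : φ a = 1 := by
      have := hpowg a
      rw [hg3, pow_succ, h5, one_mul] at this
      exact this
    exact haG ((hmemGA a).2 ((hφ a).1 h6))
  -- the subgroup
  have hYG : a₁ ^ g ∈ chevE6.group F := by
    have := (hφ (aA ^ g)).1 (by rw [map_pow]; exact hpowg aA)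
    simpa [haA] using this
  set Y : ↥(chevE6.group F) := ⟨a₁ ^ g, hYG⟩ with hY
  have hgN : g ∣ N := by
    rcases hg13 with h | h <;> rw [h]
    · exact one_dvd _
    · refine Dvd.dvd.mul_left ?_ _
      rw [← ZMod.natCast_eq_zero_iff]
      push_cast
      refine (mod_three _).2 ?_
      have h3 : 3 ∣ q - 1 := h ▸ Nat.gcd_dvd_right 3 (q - 1)
      have h4 := (ZMod.natCast_eq_zero_iff (q - 1) 3).2 h3
      rw [Nat.cast_sub (by omega), Nat.cast_one] at h4
      exact h4
  have hYo : orderOf Y = N / g := by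
    rw [← Subgroup.orderOf_coe, hY]
    show orderOf (a₁ ^ g) = _
    rw [orderOf_pow, ha₁o, Nat.gcd_eq_right hgN]
  have key : ∀ w : ↥(chevE6.group F), (w : GL chevE6.Idx F) * x = x * (w : GL chevE6.Idx F) →
      w ∈ Subgroup.zpowers Y := by
    intro w hw
    obtain ⟨j, hj⟩ := Subgroup.mem_zpowers_iff.1 (ha₁max _ (hGA w.2) hw)
    have hgj : (g : ℤ) ∣ j := by
      rcases hg13 with h | h
      · rw [h]; exact one_dvd _
      · have h1 : φ aA ^ j = 1 := by
          rw [← map_zpow, hφ]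
          rw [Subgroup.coe_zpow]
          show a₁ ^ j ∈ chevE6.group F
          rw [hj]; exact w.2
        have h2 : orderOf (φ aA) = 3 := by
          refine orderOf_eq_prime (h ▸ hpowg aA) fun h' => hout h ((hφ aA).1 h')
        rw [h, show ((3 : ℕ) : ℤ) = (orderOf (φ aA) : ℤ) by rw [h2], orderOf_dvd_iff_zpow_eq_one, h1]
    obtain ⟨j', rfl⟩ := hgj
    refine Subgroup.mem_zpowers_iff.2 ⟨j', Subtype.ext ?_⟩
    rw [Subgroup.coe_zpow, hY, ← hj]
    show (a₁ ^ g) ^ j' = _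
    rw [zpow_mul, zpow_natCast]
  refine ⟨Subgroup.zpowers Y, inferInstance, by rw [Nat.card_zpowers, hYo], le_antisymm (fun w hw => ?_) ?_⟩
  · obtain ⟨j, hj⟩ := key ⟨x, hxG⟩ rfl
    refine key w ?_
    have h1 := Subgroup.mem_centralizer_iff.1 hw _ (Subgroup.zpow_mem_zpowers Y j)
    have hj' : Y ^ j = ⟨x, hxG⟩ := hj
    rw [hj'] at h1
    exact (congrArg Subtype.val h1).symm
  · intro w hw
    rw [Subgroup.mem_centralizer_iff]
    intro z hz
    obtain ⟨j, rfl⟩ := hw
    obtain ⟨j', rfl⟩ := hz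
    exact (Commute.zpow_zpow_self Y j' j).eq

end Cfsg.Agent.Lib.Chev.E6Cyclic
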