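import Cfsg.Agent.Lib.Chev.E6Cyclic.Types

/-!
An eigenvector of order `12` modulo a large prime is regular in E₆.
-/

set_option autoImplicit false

namespace Cfsg.Agent.Lib.Chev.E6Cyclic

open Cfsg.Lie Cfsg.Agent.Lib Cfsg.Agent.Lib.Chev Polynomial Homocyclic
open Cfsg.Agent.Lib.Chev.CoxTorus (wMat fnl fnl_simple cV cV_sg wMat_pow cast_aeval aeval_mulVec_eigen)

theorem even_of_eq {k I J x y : ℤ} (h : 3 * k = 2 * ((2 * I + J) * x + (I + 2 * J) * y)) : (2 : ℤ) ∣ k := by
  generalize (2 * I + J) * x + (I + 2 * J) * y = w at h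
  omega

variable {l : ℕ}

/-- The rational vector with the same entries. -/
def castQ (y : Fin l → ℤ) : Fin l → ℚ := fun i => (y i : ℚ)

theorem castQ_eq_zero {y : Fin l → ℤ} : castQ y = 0 ↔ y = 0 :=
  ⟨fun h => funext fun i => Int.cast_injective (α := ℚ) (by simpa [castQ] using congrFun h i), fun h => by
    subst h; funext i; simp [castQ]⟩

theorem castQ_vecMul (M : Matrix (Fin l) (Fin l) ℤ) (y : Fin l → ℤ) :
    Matrix.vecMul (castQ y) (M.map (Int.cast : ℤ → ℚ)) = castQ (Matrix.vecMul y M) := by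
  funext i
  exact (RingHom.map_vecMul (Int.castRingHom ℚ) M y i).symm

theorem castQ_aeval (M : Matrix (Fin l) (Fin l) ℤ) (f : ℤ[X]) (y : Fin l → ℤ) :
    Matrix.vecMul (castQ y) (aeval (M.map (Int.cast : ℤ → ℚ)) (f.map (Int.castRingHom ℚ))) =
      castQ (Matrix.vecMul y (aeval M f)) := by
  rw [cast_aeval]
  exact castQ_vecMul _ y

theorem castQ_pow (M : Matrix (Fin l) (Fin l) ℤ) (i : ℕ) (y : Fin l → ℤ) :
    Matrix.vecMul (castQ y) ((M.map (Int.cast : ℤ → ℚ)) ^ i) = castQ (Matrix.vecMul y (M ^ i)) := by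
  rw [show M.map (Int.cast : ℤ → ℚ) = (Int.castRingHom ℚ).mapMatrix M from rfl, ← map_pow]
  exact castQ_vecMul _ y

theorem castQ_dot (x y : Fin l → ℤ) : castQ x ⬝ᵥ castQ y = ((x ⬝ᵥ y : ℤ) : ℚ) :=
  (RingHom.map_dotProduct (Int.castRingHom ℚ) x y).symm

theorem row_kills {A B : Matrix (Fin l) (Fin l) ℤ} (h : A * B = 0) (i : Fin l) : Matrix.vecMul (A i) B = 0 := by
  rw [← Matrix.mul_apply_eq_vecMul, h]
  rfl

theorem irreducible_cyclotomic_rat {d : ℕ} (hd : 0 < d) {f : ℤ[X]} (hf : cyclotomic d ℤ = f) :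
    Irreducible (f.map (Int.castRingHom ℚ)) ∧ (f.map (Int.castRingHom ℚ)).natDegree = d.totient := by
  subst hf
  rw [map_cyclotomic, natDegree_cyclotomic]
  exact ⟨cyclotomic.irreducible_rat hd, rfl⟩

theorem mulVec_of_fnl {D : ChevalleyDatum} {T : Fast} {K : Type*} [Field K] (C : Checked D T) {n : GL D.Idx K}
    {r : ℕ} {μ : ZMod r} {a : Fin D.rank → ZMod r}
    (heig : ∀ v < D.nroots, fnl T D a (C.sg n v) = μ * fnl T D a v) :
    ((wMat C n).map (Int.cast : ℤ → ZMod r)).mulVec a = μ • a := by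
  funext j
  have h := heig _ (C.root.simple_lt j j.2)
  rw [fnl_simple C] at h
  exact h

theorem regular {K : Type*} [Field K] {n : GL chevE6.Idx K} (hn : n ∈ chevE6.monomialSubgroup K) {r q : ℕ}
    [Fact r.Prime] (hr : 7 < r) {a : Fin chevE6.rank → ZMod r} (ha : a ≠ 0) (hq : orderOf (q : ZMod r) = 12)
    (heig : ∀ v < chevE6.nroots, fnl E6.fast chevE6 a (E6.checked.sg n v) = (q : ZMod r) * fnl E6.fast chevE6 a v) :
    ∀ v < chevE6.nroots, fnl E6.fast chevE6 a v ≠ 0 := by
  classical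
  intro v hv hav
  set C := E6.checked
  set M := wMat C n with hMdef
  have hev := mulVec_of_fnl C heig
  rw [← hMdef] at hev
  obtain ⟨-, h0⟩ := charpoly_eq hn (by omega) ha hq hev
  rw [← hMdef] at h0
  obtain ⟨b, h, hh, -, hb, -, hzero, -⟩ := exists_avg (F := K) C (by rw [rank_E6]; omega) ha
  set z := cV E6.fast chevE6 v with hz
  have hzpow : ∀ i : ℕ, Matrix.vecMul z (M ^ i) = cV E6.fast chevE6 (C.sg (n ^ i) v) := fun i => by
    rw [hMdef, ← wMat_pow C hn, hz, ← cV_sg C (pow_mem hn i) hv]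
  have horb : ∀ i : ℕ, fnl E6.fast chevE6 a (C.sg (n ^ i) v) = 0 := by
    intro i
    induction i with
    | zero => rw [pow_zero, C.sg_one hv]; exact hav
    | succ i ih => rw [pow_succ', C.sg_mul hn (pow_mem hn i) hv, heig _ (C.sg_lt (pow_mem hn i) hv), ih, mul_zero]
  have hzdot : ∀ f : ℤ[X], Matrix.vecMul z (aeval M f) ⬝ᵥ b = 0 := by
    intro f
    induction f using Polynomial.induction_on' with
    | add f g hf hg => rw [map_add, Matrix.vecMul_add, add_dotProduct, hf, hg, add_zero]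
    | monomial k c =>
      rw [aeval_monomial, ← Algebra.smul_def, Matrix.vecMul_smul, smul_dotProduct, hzpow]
      have h1 := hzero _ (C.sg_lt (pow_mem hn k) hv) (horb k)
      have h2 : cV E6.fast chevE6 (C.sg (n ^ k) v) ⬝ᵥ b = 0 := by
        rw [← h1]; simp [fnl, cV, dotProduct]
      rw [h2, smul_zero]
  set MQ := M.map (Int.cast : ℤ → ℚ) with hMQ
  have hm12 : (cyclotomic 12 ℤ) = p12 := cyclotomic_twelve
  obtain ⟨i12, d12⟩ := irreducible_cyclotomic_rat (by norm_num) cyclotomic_twelve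
  obtain ⟨i3, d3⟩ := irreducible_cyclotomic_rat (by norm_num) cyclotomic_three'
  rw [show Nat.totient 12 = 4 by decide] at d12
  rw [show Nat.totient 3 = 2 by decide] at d3
  have hco : IsCoprime (p12.map (Int.castRingHom ℚ)) (p3.map (Int.castRingHom ℚ)) := by
    rw [← cyclotomic_twelve, ← cyclotomic_three', map_cyclotomic, map_cyclotomic]
    exact cyclotomic.isCoprime_rat (by norm_num)
  have hq3 : (p3.map (Int.castRingHom (ZMod r))).eval (q : ZMod r) ≠ 0 := by
    intro h1
    rw [p3] at h1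
    simp only [Polynomial.map_add, Polynomial.map_pow, map_X, Polynomial.map_one, eval_add, eval_pow, eval_X,
      eval_one] at h1
    have h2 : (q : ZMod r) ^ 3 = 1 := by linear_combination ((q : ZMod r) - 1) * h1
    have h4 := Nat.le_of_dvd (by norm_num) (orderOf_dvd_of_pow_eq_one h2)
    omega
  have hq12 : (p12.map (Int.castRingHom (ZMod r))).eval (q : ZMod r) = 0 := by
    rw [← cyclotomic_twelve, map_cyclotomic]
    exact (hq ▸ IsPrimitiveRoot.orderOf (q : ZMod r)).isRoot_cyclotomic (by norm_num)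
  set kp : ℤ[X] := -(X * p12) with hkp
  set Kk := aeval M kp with hKk
  have hK3 : Kk * aeval M p3 = 0 := by
    rw [hKk, ← map_mul]
    exact aeval_of_dvd h0 ⟨-X, by rw [hkp]; ring⟩
  have hK0 : ∃ i, Kk i ≠ 0 := by
    by_contra hK
    push Not at hK
    have : Fact (Nat.Prime 3) := ⟨Nat.prime_three⟩
    have h2 := vecMul_aeval (invariant C (fun j => ((u6 j : ℤ) : ZMod 3)) u6_spec hn) (kp.map (Int.castRingHom (ZMod 3)))
    rw [cast_aeval, ← hMdef, ← hKk, show Kk = 0 from funext hK, map_zero, Matrix.vecMul_zero] at h2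
    refine u6_ne ((smul_eq_zero.1 h2.symm).resolve_left ?_)
    simp [hkp, p12]
  have h3row : ∀ j, Matrix.vecMul ((aeval M p3) j) (aeval M p12) = 0 := fun j =>
    row_kills (by rw [← map_mul, mul_comm, h0]) j
  -- the root lies in the kernel of `Φ₃`
  have hw : Matrix.vecMul z (aeval M p3) = 0 := by
    by_contra hw
    obtain ⟨i, hi⟩ := hK0
    have hspan : ∀ j, castQ ((aeval M p3) j) ∈ Submodule.span ℚ (Set.range fun t : Fin 4 =>
        Matrix.vecMul (castQ (Matrix.vecMul z (aeval M p3))) (MQ ^ (t : ℕ))) := fun j =>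
      mem_span_orbit i12 i3 hco d12 d3 (by rw [rank_E6]) (fun h => hw (castQ_eq_zero.1 h))
        (by rw [castQ_aeval, Matrix.vecMul_vecMul, ← map_mul, mul_comm, h0, Matrix.vecMul_zero]; exact castQ_eq_zero.2 rfl)
        (y' := castQ (Kk i)) (fun h => hi (castQ_eq_zero.1 h))
        (by rw [castQ_aeval, row_kills hK3]; exact castQ_eq_zero.2 rfl)
        (by rw [castQ_aeval, h3row]; exact castQ_eq_zero.2 rfl)
    have hdot : ∀ j, (aeval M p3) j ⬝ᵥ b = 0 := by
      intro j
      obtain ⟨g, hg⟩ := (Submodule.mem_span_range_iff_exists_fun ℚ).1 (hspan j)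
      have h2 := congrArg (fun x => x ⬝ᵥ castQ b) hg
      simp only [sum_dotProduct, smul_dotProduct] at h2
      rw [castQ_dot, Finset.sum_eq_zero fun t _ => ?_] at h2
      · exact_mod_cast h2.symm
      · have hpow : M ^ (t : ℕ) = aeval M (X ^ (t : ℕ) : ℤ[X]) := by rw [map_pow, aeval_X]
        rw [castQ_pow, castQ_dot, hpow, Matrix.vecMul_vecMul, ← map_mul, hzdot, Int.cast_zero, smul_zero]
    have h2 := aeval_mulVec_eigen hev (p3.map (Int.castRingHom (ZMod r)))
    rw [cast_aeval] at h2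
    refine ha ?_
    funext j
    have h4 := congrFun h2 j
    have h5 : ((Int.castRingHom (ZMod r)).mapMatrix (aeval M p3)).mulVec a j * h = 0 := by
      have := congrArg (fun x : ℤ => (x : ZMod r)) (hdot j)
      simp only [dotProduct, Int.cast_sum, Int.cast_mul, Int.cast_zero] at this
      rw [← this, Matrix.mulVec, dotProduct, Finset.sum_mul]
      refine Finset.sum_congr rfl fun k _ => ?_
      rw [hb k]
      simp only [RingHom.mapMatrix_apply, Matrix.map_apply, Int.coe_castRingHom]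
      ring
    rw [h4, Pi.smul_apply, smul_eq_mul] at h5
    exact (mul_eq_zero.1 ((mul_eq_zero.1 h5).resolve_right hh)).resolve_left hq3
  -- the hexagon of the root
  have hiso : M * aMat * M.transpose = aMat := by
    have := isometry C laced_E6 hn
    rwa [cMat_eq] at this
  have hsymA : aMat.transpose = aMat := by
    rw [← cMat_eq]; exact cMat_symm C laced_E6
  let ip : (Fin chevE6.rank → ℤ) → (Fin chevE6.rank → ℤ) → ℤ := fun x y => Matrix.vecMul x aMat ⬝ᵥ y
  have hipsymm : ∀ x y, ip x y = ip y x := fun x y => by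
    simp only [ip]
    rw [← Matrix.dotProduct_mulVec, dotProduct_comm]
    conv_lhs => rw [← hsymA, Matrix.mulVec_transpose]
  have hipM : ∀ x y, ip (Matrix.vecMul x M) (Matrix.vecMul y M) = ip x y := fun x y => by
    simp only [ip]
    rw [← Matrix.mulVec_transpose M y, Matrix.dotProduct_mulVec, Matrix.vecMul_vecMul, Matrix.vecMul_vecMul, ← mul_assoc, hiso]
  have hroot : ∀ u < chevE6.nroots, ip (cV E6.fast chevE6 u) (cV E6.fast chevE6 u) = 2 := fun u hu => by
    have h1 := pair_bilin C laced_E6 hu hu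
    rw [C.pair_self hu, cMat_eq] at h1
    exact h1.symm
  set z' := Matrix.vecMul z M with hz'
  set z'' := Matrix.vecMul z' M with hz''
  have hsum3 : z'' + z' + z = 0 := by
    rw [p3, map_add, map_add, map_pow, aeval_X, map_one, Matrix.vecMul_add, Matrix.vecMul_add, Matrix.vecMul_one,
      pow_two, ← Matrix.vecMul_vecMul] at hw
    exact hw
  have hz3 : Matrix.vecMul z'' M = z := by
    have h1 : Matrix.vecMul z (aeval M (p3 * (X - 1))) = 0 := by
      rw [map_mul, ← Matrix.vecMul_vecMul, hw, Matrix.zero_vecMul]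
    rw [show p3 * (X - 1) = X ^ 3 - 1 by rw [p3]; ring, map_sub, map_pow, aeval_X, map_one, Matrix.vecMul_sub,
      Matrix.vecMul_one, sub_eq_zero] at h1
    rw [hz'', hz', Matrix.vecMul_vecMul, Matrix.vecMul_vecMul, ← pow_three, h1]
  have hzz : ip z z = 2 := hroot v hv
  have hzz' : ip z' z' = 2 := by rw [hipM]; exact hzz
  have hzz'' : ip z z' = -1 := by
    have h1 : ip z z'' = ip z z' := by rw [← hipM z z'', hz3, hipsymm]
    have h2 : ip z (z'' + z' + z) = 0 := by rw [hsum3]; simp only [ip, dotProduct_zero]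
    have h4 : ip z z'' + ip z z' + ip z z = 0 := by
      rw [← h2]; simp only [ip, dotProduct_add]
    omega
  have hz0 : castQ z ≠ 0 := fun h => by
    rw [castQ_eq_zero.1 h] at hzz
    simp [ip] at hzz
  have h30 : ∃ j, (aeval M p3) j ≠ 0 := by
    by_contra h1
    push Not at h1
    have h2 := aeval_mulVec_eigen hev (p3.map (Int.castRingHom (ZMod r)))
    rw [cast_aeval, show aeval M p3 = 0 from funext h1, map_zero, Matrix.zero_mulVec] at h2
    exact ha ((smul_eq_zero.1 h2.symm).resolve_left hq3)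
  obtain ⟨j₀, hj₀⟩ := h30
  -- `Kk` is even
  have hKsym : Kk * aMat = aMat * Kk.transpose := by
    have hM12 : M ^ 12 = 1 := by
      have := aeval_of_dvd (f := X ^ 12 - 1) h0
        ⟨-1 + X - X ^ 2 + X ^ 4 - X ^ 5 + X ^ 6, by rw [p12, p3]; ring⟩
      rwa [map_sub, map_pow, aeval_X, map_one, sub_eq_zero] at this
    rw [hKk, transpose_swap hiso hM12]
    have := aeval_of_dvd (f := kp.comp (X ^ 11) - kp) h0
      ⟨X - X ^ 2 + X ^ 4 - X ^ 5 + X ^ 7 - X ^ 8 + X ^ 10 - 2 * X ^ 11 + X ^ 12 - X ^ 14 + X ^ 15 + X ^ 19 - X ^ 20 +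
        X ^ 22 - 2 * X ^ 23 + X ^ 24 - X ^ 26 + X ^ 27 + X ^ 31 - X ^ 32 + X ^ 33 - X ^ 35 + X ^ 36 - X ^ 37 + X ^ 43 -
        X ^ 44 + X ^ 45 - X ^ 47 + X ^ 48 - X ^ 49, by simp [hkp, p12, p3]; ring⟩
    rw [map_sub, sub_eq_zero] at this
    rw [this]
  have hzK : Matrix.vecMul z Kk = (2 : ℤ) • z := by
    have h1 : Matrix.vecMul z (aeval M (p3 * (-2 + X + X ^ 2 - X ^ 3))) = 0 := by
      rw [map_mul, ← Matrix.vecMul_vecMul, hw, Matrix.zero_vecMul]
    rw [show p3 * (-2 + X + X ^ 2 - X ^ 3) = kp - Polynomial.C (2 : ℤ) by rw [hkp, p12, p3, map_ofNat]; ring, map_sub, aeval_C,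
      Algebra.algebraMap_eq_smul_one, Matrix.vecMul_sub, Matrix.vecMul_smul, Matrix.vecMul_one, sub_eq_zero] at h1
    exact h1
  have hz'K : Matrix.vecMul z' Kk = (2 : ℤ) • z' := by
    rw [hz', Matrix.vecMul_vecMul, show M * Kk = Kk * M from ?_, ← Matrix.vecMul_vecMul, hzK, Matrix.smul_vecMul]
    calc M * Kk = aeval M (X * kp) := by rw [hKk, map_mul, aeval_X]
        _ = aeval M (kp * X) := by rw [mul_comm]
        _ = Kk * M := by rw [hKk, map_mul, aeval_X]
  have hipK : ∀ i y, Matrix.vecMul y Kk = (2 : ℤ) • y → ip (Kk i) y = 2 * aMat.mulVec y i := by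
    intro i y hy
    show Matrix.vecMul (Kk i) aMat ⬝ᵥ y = _
    rw [← Matrix.mul_apply_eq_vecMul, hKsym]
    show (aMat * Kk.transpose).mulVec y i = _
    rw [← Matrix.mulVec_mulVec, Matrix.mulVec_transpose, hy, Matrix.mulVec_smul, Pi.smul_apply, smul_eq_mul]
  have heven : ∀ i j, (2 : ℤ) ∣ Kk i j := by
    intro i j
    have hmem := mem_span_orbit i3 i12 hco.symm d3 d12 (A := MQ) (by rw [rank_E6]) hz0
      (by rw [castQ_aeval, hw]; exact castQ_eq_zero.2 rfl)
      (y' := castQ ((aeval M p3) j₀)) (fun h => hj₀ (castQ_eq_zero.1 h))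
      (by rw [castQ_aeval, h3row]; exact castQ_eq_zero.2 rfl)
      (d := castQ (Kk i)) (by rw [castQ_aeval, row_kills hK3]; exact castQ_eq_zero.2 rfl)
    obtain ⟨g, hg⟩ := (Submodule.mem_span_range_iff_exists_fun ℚ).1 hmem
    rw [Fin.sum_univ_two, Fin.val_zero, Fin.val_one, castQ_pow, castQ_pow, pow_zero, pow_one, Matrix.vecMul_one,
      ← hz'] at hg
    have hlin : ∀ y, ((ip (Kk i) y : ℤ) : ℚ) = g 0 * ((ip z y : ℤ) : ℚ) + g 1 * ((ip z' y : ℤ) : ℚ) := by
      intro y
      simp only [ip, ← castQ_dot, ← castQ_vecMul]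
      rw [← hg, Matrix.add_vecMul, Matrix.smul_vecMul, Matrix.smul_vecMul, add_dotProduct, smul_dotProduct,
        smul_dotProduct, smul_eq_mul, smul_eq_mul]
    have e1 := hlin z
    have e2 := hlin z'
    rw [hipK i z hzK, hzz, hipsymm z' z, hzz''] at e1
    rw [hipK i z' hz'K, hzz'', hzz'] at e2
    push_cast at e1 e2
    refine even_of_eq (I := aMat.mulVec z i) (J := aMat.mulVec z' i) (x := z j) (y := z' j) ?_
    have e3 : (Kk i j : ℚ) = g 0 * (z j : ℚ) + g 1 * (z' j : ℚ) := by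
      have := congrFun hg j
      simp only [Pi.add_apply, Pi.smul_apply, smul_eq_mul, castQ] at this
      exact this.symm
    have e4 : ((3 * Kk i j : ℤ) : ℚ) =
        ((2 * ((2 * aMat.mulVec z i + aMat.mulVec z' i) * z j + (aMat.mulVec z i + 2 * aMat.mulVec z' i) * z' j) : ℤ) : ℚ) := by
      push_cast
      linear_combination (3 : ℚ) * e3 - (2 * (z j : ℚ) + (z' j : ℚ)) * e1 - ((z j : ℚ) + 2 * (z' j : ℚ)) * e2
    exact Int.cast_injective (α := ℚ) e4
  choose E hE using heven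
  have hKE : Kk = (2 : ℤ) • (Matrix.of E : Mat6) := by
    ext i j
    rw [Matrix.smul_apply, Matrix.of_apply, hE i j, smul_eq_mul]
  have hKK : Kk * Kk = (2 : ℤ) • Kk := by
    have := aeval_of_dvd (f := kp * kp - Polynomial.C (2 : ℤ) * kp) h0 ⟨2 * X - X ^ 2 - X ^ 3 + X ^ 4, by
      rw [hkp, p12, p3, map_ofNat]; ring⟩
    rwa [map_sub, map_mul, map_mul, aeval_C, ← Algebra.smul_def, sub_eq_zero] at this
  have hidem : (Matrix.of E : Mat6) * Matrix.of E = Matrix.of E := by
    rw [hKE, Matrix.smul_mul, Matrix.mul_smul] at hKK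
    exact smul_right_injective _ (two_ne_zero (α := ℤ)) (smul_right_injective _ (two_ne_zero (α := ℤ)) hKK)
  have hEsym : (Matrix.of E : Mat6) * aMat = aMat * (Matrix.of E : Mat6).transpose := by
    rw [hKE, Matrix.smul_mul, Matrix.transpose_smul, Matrix.mul_smul] at hKsym
    exact smul_right_injective _ (two_ne_zero (α := ℤ)) hKsym
  rcases idem_trivial hidem hEsym with h1 | h1 <;> rw [h1] at hKE
  · rw [hKE, smul_zero, Matrix.vecMul_zero] at hzK
    exact hz0 (castQ_eq_zero.2 ((smul_eq_zero.1 hzK.symm).resolve_left two_ne_zero))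
  · have h2 := aeval_mulVec_eigen hev (kp.map (Int.castRingHom (ZMod r)))
    rw [cast_aeval, ← hKk, hKE] at h2
    have h4 : (kp.map (Int.castRingHom (ZMod r))).eval (q : ZMod r) = 0 := by
      rw [hkp, Polynomial.map_neg, Polynomial.map_mul, eval_neg, eval_mul, hq12, mul_zero, neg_zero]
    rw [h4, zero_smul, map_zsmul, map_one, Matrix.smul_mulVec, Matrix.one_mulVec] at h2
    rw [← Int.cast_smul_eq_zsmul (ZMod r)] at h2
    refine ha ((smul_eq_zero.1 h2).resolve_left fun h5 => ?_)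
    have h6 := Int.natCast_dvd.1 ((ZMod.intCast_zmod_eq_zero_iff_dvd _ r).1 h5)
    have := Nat.le_of_dvd (by norm_num) h6
    omega

end Cfsg.Agent.Lib.Chev.E6Cyclic
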