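import Cfsg.Agent.Lib.Chev.E6Cyclic.Adjoint
import Cfsg.Agent.Lib.Chev.E6Cyclic.Regular
import Cfsg.Agent.Lib.Chev.E6Cyclic.Lattice
import Cfsg.Agent.Lib.Chev.CoxTorus.Conj
import Cfsg.Agent.Lib.Chev.Homocyclic.Main
import Cfsg.Agent.Lib.Chev.Orders
import Cfsg.Agent.Lib.Chev.Extra
import Cfsg.Agent.Lib.Chev.GraphAut

/-!
Small facts used for the cyclic torus of E₆.
-/

set_option autoImplicit false

namespace Cfsg.Agent.Lib.Chev.E6Cyclic

open Cfsg.Lie Cfsg.Agent.Lib Cfsg.Agent.Lib.Chev Polynomial Homocyclic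

theorem mod_two : ∀ t : ZMod 2, (t ^ 4 - t ^ 2 + 1 ≠ 0) ∧ (t ^ 2 + t + 1 ≠ 0) := by decide

theorem mod_three : ∀ t : ZMod 3, (t ^ 4 - t ^ 2 + 1 ≠ 0) ∧ (t - 1 = 0 → t ^ 2 + t + 1 = 0) := by decide

theorem mod_nine : ∀ t : ZMod 9, t ^ 2 + t + 1 ≠ 0 ∧
    ((3 * ((t ^ 4 - t ^ 2 + 1) * (t ^ 2 + t + 1)) = 0) → t ^ 12 - 1 = 0) := by
  decide

theorem cast_expr {R : Type*} [CommRing R] (q : ℕ) :
    ((q ^ 4 - q ^ 2 + 1 : ℕ) : R) = (q : R) ^ 4 - (q : R) ^ 2 + 1 := by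
  rcases Nat.eq_zero_or_pos q with rfl | h
  · simp
  · rw [Nat.cast_add, Nat.cast_sub (Nat.pow_le_pow_right h (by norm_num))]
    push_cast
    ring

theorem not_nine_dvd (q : ℕ) : ¬ 3 ^ 2 ∣ (q ^ 4 - q ^ 2 + 1) * (q ^ 2 + q + 1) := by
  intro h
  have : Fact (Nat.Prime 3) := ⟨Nat.prime_three⟩
  have h3 : Nat.Coprime (3 ^ 2) (q ^ 4 - q ^ 2 + 1) := by
    refine Nat.Coprime.pow_left _ ((Nat.prime_three.coprime_iff_not_dvd).2 fun h => (mod_three q).1 ?_)
    rw [← cast_expr]; exact (ZMod.natCast_eq_zero_iff _ 3).2 h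
  refine (mod_nine q).1 ?_
  have h2 := (ZMod.natCast_eq_zero_iff _ 9).2 (h3.dvd_of_dvd_mul_left h)
  push_cast at h2
  exact h2

theorem nine_dvd (q : ℕ) (hq : 0 < q) (h : 3 ∣ (q ^ 4 - q ^ 2 + 1) * (q ^ 2 + q + 1)) : 9 ∣ q ^ 12 - 1 := by
  rw [← ZMod.natCast_eq_zero_iff, Nat.cast_sub (Nat.one_le_pow _ _ hq), Nat.cast_pow, Nat.cast_one]
  refine (mod_nine q).2 ?_
  rw [← cast_expr]
  obtain ⟨w, hw⟩ := h
  have : ((3 * ((q ^ 4 - q ^ 2 + 1) * (q ^ 2 + q + 1)) : ℕ) : ZMod 9) = 0 := by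
    rw [hw, ZMod.natCast_eq_zero_iff]; exact ⟨w, by ring⟩
  push_cast at this ⊢
  exact this

theorem simple_root_mod {q p : ℕ} [Fact p.Prime] (hp3 : p ≠ 3) (hp2 : p ≠ 2)
    (h : ((p12 * p3).map (Int.castRingHom (ZMod p))).eval (q : ZMod p) = 0) :
    (derivative ((p12 * p3).map (Int.castRingHom (ZMod p)))).eval (q : ZMod p) ≠ 0 := by
  set t := (q : ZMod p)
  have h3 : (3 : ZMod p) ≠ 0 := fun h => hp3 ((Nat.prime_dvd_prime_iff_eq Fact.out Nat.prime_three).1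
    ((ZMod.natCast_eq_zero_iff 3 p).1 (by exact_mod_cast h)))
  have h2 : (2 : ZMod p) ≠ 0 := fun h => hp2 ((Nat.prime_dvd_prime_iff_eq Fact.out Nat.prime_two).1
    ((ZMod.natCast_eq_zero_iff 2 p).1 (by exact_mod_cast h)))
  have hboth : ¬ (t ^ 4 - t ^ 2 + 1 = 0 ∧ t ^ 2 + t + 1 = 0) := fun ⟨ha, hb⟩ =>
    h2 (by linear_combination (-t) * ha - (-2 + t + t ^ 2 - t ^ 3) * hb)
  simp only [p12, p3, Polynomial.map_mul, Polynomial.map_add, Polynomial.map_sub, Polynomial.map_pow, map_X,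
    Polynomial.map_one, eval_mul, eval_add, eval_sub, eval_pow, eval_X, eval_one, derivative_mul, derivative_add,
    derivative_sub, derivative_X_pow, derivative_X, derivative_one, eval_C, Nat.cast_ofNat, map_ofNat,
    eval_ofNat, add_zero, Nat.add_one_sub_one, pow_one] at h ⊢
  intro hd
  rcases mul_eq_zero.1 h with ha | hb
  · have hb : t ^ 2 + t + 1 ≠ 0 := fun hb => hboth ⟨ha, hb⟩
    rw [ha, zero_mul, add_zero] at hd
    have h4 : t * (2 * t ^ 2 - 1) = 0 := mul_left_cancel₀ h2 (by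
      linear_combination (mul_eq_zero.1 hd).resolve_right hb)
    have ht : t ≠ 0 := fun h0 => one_ne_zero (α := ZMod p) (by rw [h0] at ha; simpa using ha)
    have h5 := (mul_eq_zero.1 h4).resolve_left ht
    exact h3 (by linear_combination 4 * ha - (2 * t ^ 2 - 1) * h5)
  · have ha : t ^ 4 - t ^ 2 + 1 ≠ 0 := fun ha => hboth ⟨ha, hb⟩
    rw [hb, mul_zero, zero_add] at hd
    have h5 := (mul_eq_zero.1 hd).resolve_left ha
    exact h3 (by linear_combination 4 * hb - (2 * t + 1) * h5)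

theorem mem_zpowers_of_cyclic {G : Type*} [Group G] {a x y : G} (ha : IsOfFinOrder a) {r : ℕ} (hr : r.Prime)
    (hx : x ∈ Subgroup.zpowers a) (hy : y ∈ Subgroup.zpowers a) (hox : orderOf x = r) (hyr : y ^ r = 1) :
    y ∈ Subgroup.zpowers x := by
  obtain ⟨j, rfl⟩ := Subgroup.mem_zpowers_iff.1 hx
  obtain ⟨k, rfl⟩ := Subgroup.mem_zpowers_iff.1 hy
  set N := orderOf a with hN
  have hN0 : (0 : ℤ) < N := by exact_mod_cast ha.orderOf_pos
  obtain ⟨u, hu⟩ : (N : ℤ) ∣ r * j := by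
    rw [hN, orderOf_dvd_iff_zpow_eq_one, mul_comm, zpow_mul, zpow_natCast, ← hox, pow_orderOf_eq_one]
  obtain ⟨v, hv⟩ : (N : ℤ) ∣ r * k := by
    rw [hN, orderOf_dvd_iff_zpow_eq_one, mul_comm, zpow_mul, zpow_natCast, hyr]
  have hr0 : (r : ℤ) ≠ 0 := by exact_mod_cast hr.ne_zero
  have hru : ¬ (r : ℤ) ∣ u := by
    rintro ⟨u', rfl⟩
    have : j = N * u' := mul_left_cancel₀ hr0 (by rw [hu]; ring)
    rw [this, zpow_mul, zpow_natCast, hN, pow_orderOf_eq_one, one_zpow, orderOf_one] at hox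
    exact hr.ne_one hox.symm
  obtain ⟨s, t, hst⟩ := ((Nat.prime_iff_prime_int.1 hr).coprime_iff_not_dvd).2 hru
  refine Subgroup.mem_zpowers_iff.2 ⟨v * t, ?_⟩
  have hk : k = j * (v * t) + N * (v * s) := mul_left_cancel₀ hr0 (by
    linear_combination hv - v * t * hu - (N : ℤ) * v * hst)
  rw [hk, zpow_add, zpow_mul a (N : ℤ), zpow_natCast, hN, pow_orderOf_eq_one, one_zpow, mul_one, ← zpow_mul]

theorem exists_gmap_of_fixed {D : ChevalleyDatum} {F L : Type*} [Field F] [Field L] (i : F →+* L) (σ : L →+* L)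
    (hi : ∀ x : L, σ x = x ↔ x ∈ i.range) {g : GL D.Idx L} (hfix : gmap D σ g = g) : ∃ a, gmap D i a = g := by
  classical
  have h : ∀ u v, ∃ y : F, i y = (g : Matrix D.Idx D.Idx L) u v := fun u v =>
    (hi _).1 (congrArg (fun x : GL D.Idx L => (x : Matrix D.Idx D.Idx L) u v) hfix)
  choose y hy using h
  have hmap : i.mapMatrix (Matrix.of y) = (g : Matrix D.Idx D.Idx L) := by
    ext u v; exact hy u v
  have hdet : (Matrix.of y : Matrix D.Idx D.Idx F).det ≠ 0 := fun h0 => by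
    have h1 := congrArg Matrix.det hmap
    rw [← RingHom.map_det, h0, map_zero] at h1
    exact (Matrix.isUnits_det_units g).ne_zero h1.symm
  refine ⟨Matrix.GeneralLinearGroup.mkOfDetNeZero _ hdet, Units.ext ?_⟩
  exact hmap

theorem bMat6_mul : bMat6 * (Matrix.of fun a b : Fin chevE6.rank => chevE6.cartan a (chevE6.simple b)) =
    (3 : ℤ) • 1 := by decide +kernel

/-- Half of the symmetrised inverse Cartan matrix. -/
def rMat : Mat6 :=
  Matrix.of fun k a => (bMat6 k a + bMat6 ⟨E6.sym.p k, E6.symData.p_lt k k.2⟩ a) / 3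

theorem rMat_mul : rMat * (Matrix.of fun a b : Fin chevE6.rank => chevE6.cartan a (chevE6.simple b)) =
    Matrix.of fun k j : Fin chevE6.rank => (if k = j then 1 else 0) + (if E6.sym.p k = (j : ℕ) then 1 else 0) := by
  decide +kernel

theorem p_invol : ∀ k : Fin chevE6.rank, E6.sym.p (E6.sym.p k) = k := fun k => E6.symData.p_inv k k.2

theorem exists_cartan_cube {G : Type*} [Field G] (z : Fin chevE6.rank → Gˣ) :
    ∃ y, E6.checked.cartanMap y = fun k => z k ^ 3 := by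
  obtain ⟨y, hy⟩ := exists_cartan E6.checked z bMat6 _ bMat6_mul
  refine ⟨y, funext fun j => ?_⟩
  rw [hy, Finset.prod_eq_single j (fun k _ hk => by simp [hk]) (by simp)]
  simp only [Matrix.smul_apply, Matrix.one_apply_eq, smul_eq_mul, mul_one]
  exact zpow_natCast (z j) 3

theorem exists_cartan_sym {G : Type*} [Field G] (z : Fin chevE6.rank → Gˣ) :
    ∃ y, E6.checked.cartanMap y = fun k => z k * z ⟨E6.sym.p k, E6.symData.p_lt k k.2⟩ := by
  obtain ⟨y, hy⟩ := exists_cartan E6.checked z rMat _ rMat_mul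
  refine ⟨y, funext fun j => ?_⟩
  rw [hy]
  simp only [Matrix.of_apply, zpow_add, Finset.prod_mul_distrib]
  congr 1
  · rw [Finset.prod_eq_single j (fun k _ hk => by simp [hk]) (by simp)]
    simp
  · rw [Finset.prod_eq_single ⟨E6.sym.p j, E6.symData.p_lt j j.2⟩ (fun k _ hk => ?_) (by simp)]
    · simp [p_invol j]
    · rw [if_neg fun h => hk (Fin.ext ?_), zpow_zero]
      show (k : ℕ) = E6.sym.p j
      rw [← h, p_invol]

theorem card_ker_E6 {K : Type*} [Field K] [Fintype K] :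
    Nat.card (E6.checked.cartanMap (F := K)).ker = (Fintype.card K - 1).gcd 3 := by
  rw [E6.checked.card_ker_cartanMap smith_E6, show E6.fast.l = 6 from rfl]
  simp [Finset.prod_range_succ]

end Cfsg.Agent.Lib.Chev.E6Cyclic
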