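import Cfsg.Agent.Lib.Chev.E6Cyclic.Form
import Cfsg.Agent.Lib.Chev.E6Cyclic.Avg

/-!
An element of W(E₆) with an eigenvalue of order `12` modulo a large prime has charpoly `Φ₁₂Φ₃`.
-/

set_option autoImplicit false

namespace Cfsg.Agent.Lib.Chev.E6Cyclic

open Cfsg.Lie Cfsg.Agent.Lib Cfsg.Agent.Lib.Chev Polynomial Homocyclic
open Cfsg.Agent.Lib.Chev.CoxTorus (wMat fnl fnl_simple cast_aeval aeval_mulVec_eigen)

/-- `Φ₁₂`, literally. -/
noncomputable def p12 : ℤ[X] := X ^ 4 - X ^ 2 + 1

/-- `Φ₃`, literally. -/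
noncomputable def p3 : ℤ[X] := X ^ 2 + X + 1

theorem cyclotomic_twelve : cyclotomic 12 ℤ = p12 := by
  rw [show (12 : ℕ) = 6 * 2 from rfl, ← cyclotomic_expand_eq_cyclotomic Nat.prime_two (by norm_num : (2 : ℕ) ∣ 6) ℤ,
    cyclotomic_six, p12]
  simp [map_sub]
  ring

theorem cyclotomic_three' : cyclotomic 3 ℤ = p3 := by
  rw [cyclotomic_three, p3]

variable {l : ℕ}

theorem aeval_of_dvd {M : Matrix (Fin l) (Fin l) ℤ} {P f : ℤ[X]} (h : aeval M P = 0) (hd : P ∣ f) :
    aeval M f = 0 := by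
  obtain ⟨g, rfl⟩ := hd
  rw [map_mul, h, zero_mul]

theorem transpose_swap {M A : Matrix (Fin l) (Fin l) ℤ} (hiso : M * A * M.transpose = A) (h12 : M ^ 12 = 1)
    (f : ℤ[X]) : A * (aeval M f).transpose = aeval M (f.comp (X ^ 11)) * A := by
  have h1 : A * M.transpose = M ^ 11 * A := by
    conv_rhs => rw [← hiso]
    rw [← mul_assoc, ← mul_assoc, ← pow_succ, h12, one_mul]
  induction f using Polynomial.induction_on' with
  | add f g hf hg => rw [map_add, Matrix.transpose_add, mul_add, hf, hg, add_comp, map_add, add_mul]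
  | monomial k c =>
    have hk : ∀ k : ℕ, A * (M ^ k).transpose = M ^ (11 * k) * A := by
      intro k
      induction k with
      | zero => simp
      | succ k ih =>
        rw [pow_succ, Matrix.transpose_mul, ← mul_assoc, h1, mul_assoc, ih, ← mul_assoc, ← pow_add]
        congr 2
        ring
    rw [aeval_monomial, monomial_comp, ← pow_mul, map_mul, map_pow, aeval_C, aeval_X, ← Algebra.smul_def,
      ← Algebra.smul_def, Matrix.transpose_smul, Matrix.mul_smul, hk, Matrix.smul_mul]

theorem totient_le_two {e : ℕ} (h : e ∣ 51840) (ht : e.totient ≤ 2) : e = 1 ∨ e = 2 ∨ e = 3 ∨ e = 4 ∨ e = 6 := by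
  have hb : ∀ k, k ∣ e → k.totient ≤ 2 := fun k hk =>
    (Nat.le_of_dvd (Nat.totient_pos.2 (Nat.pos_of_dvd_of_pos h (by norm_num))) (Nat.totient_dvd_of_dvd hk)).trans ht
  rw [show (51840 : ℕ) = 2 ^ 7 * 3 ^ 4 * 5 by norm_num] at h
  obtain ⟨u, w, hu, hw, rfl⟩ := Nat.dvd_mul.1 h
  obtain ⟨y, z, hy, hz, rfl⟩ := Nat.dvd_mul.1 hu
  obtain ⟨i, -, rfl⟩ := (Nat.dvd_prime_pow Nat.prime_two).1 hy
  obtain ⟨j, -, rfl⟩ := (Nat.dvd_prime_pow Nat.prime_three).1 hz
  have h5 : w = 1 := by
    rcases (Nat.dvd_prime Nat.prime_five).1 hw with h | h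
    · exact h
    · exfalso
      have := hb 5 (h ▸ Dvd.intro_left _ rfl)
      rw [Nat.totient_prime Nat.prime_five] at this
      omega
  subst h5
  rw [mul_one] at hb ⊢
  have hi : i ≤ 2 := by
    by_contra hc
    have := hb 8 ((pow_dvd_pow 2 (by omega : 3 ≤ i)).trans (dvd_mul_right _ _))
    rw [show Nat.totient 8 = 4 by decide] at this
    omega
  have hj : j ≤ 1 := by
    by_contra hc
    have := hb 9 ((pow_dvd_pow 3 (by omega : 2 ≤ j)).trans (dvd_mul_left _ _))
    rw [show Nat.totient 9 = 6 by decide] at this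
    omega
  interval_cases i <;> interval_cases j <;> simp
  have := hb 12 (by norm_num)
  rw [show Nat.totient 12 = 4 by decide] at this
  omega

theorem ev_one_three : ∀ e ∈ ({2, 4, 6, 12} : Finset ℕ), (cyclotomic e ℤ).eval 1 ∈ ({1, 2} : Finset ℤ) := by
  intro e he
  simp only [Finset.mem_insert, Finset.mem_singleton] at he
  rcases he with rfl | rfl | rfl | rfl
  · simp [cyclotomic_two]
  · rw [show (4 : ℕ) = 2 ^ (1 + 1) from rfl, cyclotomic_prime_pow_eq_geom_sum Nat.prime_two]
    simp [Finset.sum_range_succ]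
  · simp [cyclotomic_six]
  · simp [cyclotomic_twelve, p12]

theorem small_ne : ((1 : ℤ) : ZMod 3) ≠ 0 ∧ ((2 : ℤ) : ZMod 3) ≠ 0 := by decide

theorem charpoly_eq {K : Type*} [Field K] {n : GL chevE6.Idx K} (hn : n ∈ chevE6.monomialSubgroup K) {r q : ℕ}
    [Fact r.Prime] (hr : 5 < r) {a : Fin chevE6.rank → ZMod r} (ha : a ≠ 0) (hq : orderOf (q : ZMod r) = 12)
    (hev : ((wMat E6.checked n).map (Int.cast : ℤ → ZMod r)).mulVec a = (q : ZMod r) • a) :
    (wMat E6.checked n).charpoly = p12 * p3 ∧ aeval (wMat E6.checked n) (p12 * p3) = 0 := by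
  classical
  set C := E6.checked
  set M := wMat C n with hMdef
  set P := Nat.card (C.W K) with hPdef
  have hP0 : 0 < P := Nat.card_pos
  have hP : P = 51840 := by
    have h2 : ((P : ℕ) : ℤ) = 51840 := by
      rw [hPdef, C.card_W, C.tables.rank]; decide +kernel
    exact_mod_cast h2
  have hMP : M ^ P = 1 := wMat_pow_card C hn
  obtain ⟨s, hs, hchar, hsum⟩ := exists_multiset hP0 hMP
  have hrP : ¬ r ∣ P := by
    intro h
    rw [hP, show (51840 : ℕ) = 2 ^ 7 * 3 ^ 4 * 5 by norm_num] at h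
    have hp : r.Prime := Fact.out
    rcases (Nat.Prime.dvd_mul hp).1 h with h | h
    · rcases (Nat.Prime.dvd_mul hp).1 h with h | h
      · have := Nat.le_of_dvd (by norm_num) (hp.dvd_of_dvd_pow h); omega
      · have := Nat.le_of_dvd (by norm_num) (hp.dvd_of_dvd_pow h); omega
    · have := Nat.le_of_dvd (by norm_num) h; omega
  have h12 : 1 ≤ s.count 12 := by
    refine le_trans ?_ (finrank_eigen_le hrP hs hchar hq)
    refine Nat.one_le_iff_ne_zero.2 fun h => ha ?_
    rw [Submodule.finrank_eq_zero, Submodule.eq_bot_iff] at h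
    exact h _ (by rw [Module.End.mem_eigenspace_iff, Matrix.toLin'_apply]; exact hev)
  obtain ⟨s₁, rfl⟩ := Multiset.exists_cons_of_mem (Multiset.count_pos.1 h12)
  rw [Multiset.map_cons, Multiset.sum_cons, show Nat.totient 12 = 4 by decide, rank_E6] at hsum
  have hpos : ∀ y ∈ s₁, 0 < y.totient := fun y hy =>
    Nat.totient_pos.2 (Nat.pos_of_dvd_of_pos (hs y (Multiset.mem_cons_of_mem hy)) hP0)
  have hval : ∀ y ∈ s₁, y = 1 ∨ y = 2 ∨ y = 3 ∨ y = 4 ∨ y = 6 := fun y hy =>
    totient_le_two (hP ▸ hs y (Multiset.mem_cons_of_mem hy)) (by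
      have := Multiset.le_sum_of_mem (Multiset.mem_map_of_mem Nat.totient hy)
      omega)
  by_cases h3 : 3 ∈ s₁
  · obtain ⟨s₂, rfl⟩ := Multiset.exists_cons_of_mem h3
    rw [Multiset.map_cons, Multiset.sum_cons, show Nat.totient 3 = 2 by decide] at hsum
    obtain rfl : s₂ = 0 := by
      rcases Multiset.empty_or_exists_mem s₂ with h | ⟨y, hy⟩
      · exact h
      · have := hpos y (Multiset.mem_cons_of_mem hy)
        have := Multiset.le_sum_of_mem (Multiset.mem_map_of_mem Nat.totient hy)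
        omega
    refine ⟨by rw [hchar]; simp [cyclotomic_twelve, cyclotomic_three, p3], ?_⟩
    have h0 := aeval_eq_zero_of_top hP0 hMP hs hchar (t := {12, 3}) (fun y hy => by simpa using hy)
    rwa [Finset.prod_pair (by norm_num), cyclotomic_twelve, cyclotomic_three'] at h0
  exfalso
  by_cases h1 : 1 ∈ s₁
  · -- an orthogonal splitting
    have hall : ∀ y ∈ s₁, y = 1 ∨ y = 2 := by
      obtain ⟨s₂, rfl⟩ := Multiset.exists_cons_of_mem h1
      rw [Multiset.map_cons, Multiset.sum_cons, Nat.totient_one] at hsum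
      intro y hy
      rcases Multiset.mem_cons.1 hy with rfl | hy'
      · exact Or.inl rfl
      · have h2 := hpos y hy
        have h4 := Multiset.le_sum_of_mem (Multiset.mem_map_of_mem Nat.totient hy')
        exact Nat.totient_eq_one_iff.1 (by omega)
    have h0 := aeval_eq_zero_of_top hP0 hMP hs hchar (t := {12, 1, 2}) (fun y hy => by
      rcases Multiset.mem_cons.1 hy with rfl | hy
      · simp
      · rcases hall y hy with rfl | rfl <;> simp)
    rw [Finset.prod_insert (by simp), Finset.prod_pair (by norm_num), cyclotomic_twelve, cyclotomic_one,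
      cyclotomic_two] at h0
    set E := aeval M p12 with hE
    have hM12 : M ^ 12 = 1 := by
      have := aeval_of_dvd (f := X ^ 12 - 1) h0 ⟨X ^ 6 + 2 * X ^ 4 + 2 * X ^ 2 + 1, by rw [p12]; ring⟩
      rwa [map_sub, map_pow, aeval_X, map_one, sub_eq_zero] at this
    have hidem : E * E = E := by
      have := aeval_of_dvd (f := p12 * p12 - p12) h0 ⟨X ^ 2, by rw [p12]; ring⟩
      rwa [map_sub, map_mul, sub_eq_zero] at this
    have hsym : E * aMat = aMat * E.transpose := by
      have hiso := isometry C laced_E6 hn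
      rw [cMat_eq] at hiso
      rw [hE, transpose_swap hiso hM12]
      have := aeval_of_dvd (f := p12.comp (X ^ 11) - p12) h0
        ⟨-X ^ 2 - X ^ 4 + X ^ 8 + X ^ 10 - X ^ 14 - X ^ 16 + X ^ 20 + 2 * X ^ 22 + 2 * X ^ 24 + X ^ 26 + X ^ 32 +
          2 * X ^ 34 + 2 * X ^ 36 + X ^ 38, by simp [p12]; ring⟩
      rw [map_sub, sub_eq_zero] at this
      rw [this]
    have heq : M.charpoly.eval 1 = 0 := by
      rw [hchar, eval_multiset_prod, Multiset.prod_eq_zero_iff, Multiset.map_map, Multiset.mem_map]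
      exact ⟨1, Multiset.mem_cons_of_mem h1, by simp⟩
    rw [Matrix.eval_charpoly] at heq
    obtain ⟨v, hv, hv0⟩ := Matrix.exists_mulVec_eq_zero_iff.2 heq
    rw [map_one, Matrix.sub_mulVec, Matrix.one_mulVec, sub_eq_zero] at hv0
    have hEv := aeval_mulVec_eigen (A := M) (a := v) (μ := (1 : ℤ)) (by rw [one_smul]; exact hv0.symm) p12
    rw [← hE] at hEv
    rcases idem_trivial hidem hsym with h | h
    · rw [h, Matrix.zero_mulVec] at hEv
      simp [p12] at hEv
      exact hv hEv.symm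
    · have h2 := aeval_mulVec_eigen hev (p12.map (Int.castRingHom (ZMod r)))
      rw [cast_aeval, ← hE, h, map_one, Matrix.one_mulVec] at h2
      have h4 : (p12.map (Int.castRingHom (ZMod r))).eval (q : ZMod r) = 0 := by
        rw [← cyclotomic_twelve, map_cyclotomic]
        exact (hq ▸ IsPrimitiveRoot.orderOf (q : ZMod r)).isRoot_cyclotomic (by norm_num)
      rw [h4, zero_smul] at h2
      exact ha h2
  · -- the invariant modulo three
    have : Fact (Nat.Prime 3) := ⟨Nat.prime_three⟩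
    have ht : ∀ y ∈ (12 ::ₘ s₁), y ∈ ({2, 4, 6, 12} : Finset ℕ) := fun y hy => by
      rcases Multiset.mem_cons.1 hy with rfl | hy
      · simp
      · rcases hval y hy with rfl | rfl | rfl | rfl | rfl <;> simp at *
        exacts [h1 hy, h3 hy]
    have h0 := aeval_eq_zero_of_top hP0 hMP hs hchar (t := {2, 4, 6, 12}) ht
    set f : ℤ[X] := ∏ e ∈ ({2, 4, 6, 12} : Finset ℕ), cyclotomic e ℤ with hf
    have h2 := vecMul_aeval (invariant C (fun j => ((u6 j : ℤ) : ZMod 3)) u6_spec hn) (f.map (Int.castRingHom (ZMod 3)))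
    rw [cast_aeval, ← hMdef, h0, map_zero, Matrix.vecMul_zero] at h2
    have h4 : (f.map (Int.castRingHom (ZMod 3))).eval 1 ≠ 0 := by
      rw [hf, Polynomial.map_prod, eval_prod, Finset.prod_ne_zero_iff]
      intro e he
      rw [← map_one (Int.castRingHom (ZMod 3)), eval_map, eval₂_at_apply]
      have := ev_one_three e he
      simp only [Finset.mem_insert, Finset.mem_singleton] at this
      rcases this with h | h <;> rw [h]
      exacts [small_ne.1, small_ne.2]
    exact u6_ne ((smul_eq_zero.1 h2.symm).resolve_left h4)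

end Cfsg.Agent.Lib.Chev.E6Cyclic
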